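import Cfsg.Agent.Classical.MonoFixAxis
import Cfsg.Agent.SLGeo91.Solve

/-!
An overgroup of the determinant-one diagonal matrices with a non-monomial element contains, or its
transpose-inverse contains, a non-monomial element fixing an axis: dimension at least six.
-/

set_option autoImplicit false

namespace CfsgLib.SLGeo91.MonoFixSix

open Matrix CfsgLib.TransvGL CfsgLib.MonoBasics CfsgLib.MonoFixAxis CfsgLib.PseudoRefl

variable {ι : Type} [Fintype ι] [DecidableEq ι] {F : Type*} [Field F]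

local notation "ax" i:max => (Pi.single i (1 : F) : ι → F)

/-- Transpose-inverse. -/
def dual : GL ι F →* GL ι F where
  toFun g := ⟨((g⁻¹ : GL ι F) : Matrix ι ι F)ᵀ, (g : Matrix ι ι F)ᵀ,
    by rw [← transpose_mul, ← Units.val_mul, mul_inv_cancel, Units.val_one, transpose_one],
    by rw [← transpose_mul, ← Units.val_mul, inv_mul_cancel, Units.val_one, transpose_one]⟩
  map_one' := Units.ext (by simp)
  map_mul' g h := Units.ext (by simp [transpose_mul])

theorem dual_apply (g : GL ι F) :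
    (dual g : Matrix ι ι F) = ((g⁻¹ : GL ι F) : Matrix ι ι F)ᵀ := rfl

theorem dual_dual (g : GL ι F) : dual (dual g) = g := Units.ext (by
  rw [dual_apply, ← map_inv, dual_apply, inv_inv, transpose_transpose])

theorem col_eq' (g : GL ι F) (a i : ι) :
    ((g : Matrix ι ι F) *ᵥ ax a) i = (g : Matrix ι ι F) i a := by
  rw [Matrix.mulVec_single_one]; rfl

theorem isMono_dual {g : GL ι F} (hg : IsMono g) : IsMono (dual g) := by
  choose π hπ using hg.inv
  have hinj := mono_index_injective hπ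
  intro i
  obtain ⟨j, rfl⟩ := (Finite.injective_iff_surjective.1 hinj) i
  refine ⟨j, mem_axis_iff.2 fun k hk => ?_⟩
  rw [col_eq', dual_apply, transpose_apply, ← col_eq']
  exact mem_axis_iff.1 (hπ k) (π j) fun e => hk (hinj e).symm

theorem isMono_of_dual {g : GL ι F} (hg : IsMono (dual g)) : IsMono g :=
  dual_dual g ▸ isMono_dual hg

theorem dual_mem_specialLinear {g : GL ι F} (hg : g ∈ Cfsg.Geo.specialLinear ι F) :
    dual g ∈ Cfsg.Geo.specialLinear ι F := by
  rw [mem_specialLinear_iff, dual_apply, det_transpose]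
  exact mem_specialLinear_iff.1 (inv_mem hg)

theorem dual_dg (d : ι → Fˣ) : dual (dg d) = dg fun i => (d i)⁻¹ := by
  apply Units.ext
  rw [dual_apply, dg_inv]
  exact diagonal_transpose _

/-- No two rows are proportional. -/
theorem not_rows_prop (g : GL ι F) {k l : ι} (hkl : k ≠ l) {c d : F} (hc : c ≠ 0) :
    ¬ ∀ p, c * (g : Matrix ι ι F) k p + d * (g : Matrix ι ι F) l p = 0 := by
  intro h
  have h0 : (c • ax k + d • ax l) ᵥ* (g : Matrix ι ι F) = 0 := by
    funext p
    simp only [add_vecMul, smul_vecMul, single_one_vecMul, Pi.add_apply, Pi.smul_apply, smul_eq_mul,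
      Pi.zero_apply, Matrix.row_apply]
    exact h p
  have h1 : c • ax k + d • ax l = 0 :=
    Matrix.vecMul_injective_iff_isUnit.2 g.isUnit (h0.trans (Matrix.zero_vecMul _).symm)
  have := congrFun h1 k
  simp [hkl] at this
  exact hc this

variable {M : Subgroup (GL ι F)}

theorem conj_torPair_apply (g : GL ι F) {k l : ι} (hkl : k ≠ l) (δ : Fˣ) (a b : ι) :
    ((g⁻¹ * dg (torPair k l δ) * g : GL ι F) : Matrix ι ι F) a b =
      (1 : Matrix ι ι F) a b
        + ((δ : F) - 1) * (((g⁻¹ : GL ι F) : Matrix ι ι F) a k * (g : Matrix ι ι F) k b)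
        + ((δ : F)⁻¹ - 1) * (((g⁻¹ : GL ι F) : Matrix ι ι F) a l * (g : Matrix ι ι F) l b) := by
  have hd : ∀ x : ι → F, (dg (torPair k l δ) : Matrix ι ι F) *ᵥ x =
      x + (((δ : F) - 1) * x k) • ax k + (((δ : F)⁻¹ - 1) * x l) • ax l := fun x => funext fun i => by
    rw [dg_mulVec]
    rcases eq_or_ne i k with rfl | hik
    · simp [torPair, hkl]; ring
    rcases eq_or_ne i l with rfl | hil
    · simp [torPair, Ne.symm hkl]; ring
    · simp [torPair, hik, hil]
  rw [← col_eq' (g⁻¹ * dg (torPair k l δ) * g), Units.val_mul, Units.val_mul, ← mulVec_mulVec,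
    ← mulVec_mulVec, hd, mulVec_add, mulVec_add, mulVec_smul, mulVec_smul, inv_mulVec_mulVec]
  simp only [Pi.add_apply, Pi.smul_apply, smul_eq_mul, col_eq', Matrix.one_apply,
    Pi.single_apply]
  ring

theorem exists_outside (S : Finset ι) (h : S.card < Fintype.card ι) : ∃ i, i ∉ S := by
  obtain ⟨i, -, hi⟩ := Finset.exists_mem_notMem_of_card_lt_card (s := S) (t := Finset.univ)
    (by rwa [Finset.card_univ])
  exact ⟨i, hi⟩

/-- A non-monomial element with a zero exists. -/
theorem exists_zero (hn : 6 ≤ Fintype.card ι) (hT : ∀ d : ι → Fˣ, ∏ i, d i = 1 → dg d ∈ M)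
    {g₀ : GL ι F} (hgM : g₀ ∈ M) (hg : ¬ IsMono g₀) :
    ∃ g ∈ M, ¬ IsMono g ∧ ∃ z a, (g : Matrix ι ι F) z a = 0 := by
  by_contra hfull
  push Not at hfull
  have hG : ∀ i j, (g₀ : Matrix ι ι F) i j ≠ 0 := hfull g₀ hgM hg
  have hU : ∀ i j, ((g₀⁻¹ : GL ι F) : Matrix ι ι F) i j ≠ 0 :=
    hfull _ (M.inv_mem hgM) fun h => hg (inv_inv g₀ ▸ h.inv)
  obtain ⟨k, -⟩ := exists_outside (ι := ι) ∅ (by rw [Finset.card_empty]; omega)
  obtain ⟨l, hl⟩ := exists_outside ({k} : Finset ι) (by rw [Finset.card_singleton]; omega)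
  have hkl : k ≠ l := fun e => hl (by simp [e])
  have key : ∀ a b, a ≠ b → ((g₀⁻¹ : GL ι F) : Matrix ι ι F) a k * (g₀ : Matrix ι ι F) k b
      = ((g₀⁻¹ : GL ι F) : Matrix ι ι F) a l * (g₀ : Matrix ι ι F) l b := by
    intro a b hab
    by_contra hne
    set α := ((g₀⁻¹ : GL ι F) : Matrix ι ι F) a k * (g₀ : Matrix ι ι F) k b
    set β := ((g₀⁻¹ : GL ι F) : Matrix ι ι F) a l * (g₀ : Matrix ι ι F) l b
    have hα : α ≠ 0 := mul_ne_zero (hU a k) (hG k b)
    have hβ : β ≠ 0 := mul_ne_zero (hU a l) (hG l b)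
    let δ : Fˣ := Units.mk0 (β / α) (div_ne_zero hβ hα)
    have hδ : (δ : F) - 1 ≠ 0 := sub_ne_zero.2 fun e => hne ((div_eq_one_iff_eq hα).1 e).symm
    have hδ' : (δ : F)⁻¹ - 1 ≠ 0 := sub_ne_zero.2 fun e => hδ (sub_eq_zero.2 (inv_eq_one.1 e))
    set A := g₀⁻¹ * dg (torPair k l δ) * g₀
    refine hfull A (M.mul_mem (M.mul_mem (M.inv_mem hgM) (hT _ (prod_torPair hkl δ))) hgM)
      (fun hA => ?_) a b ?_
    · choose π hπ using hA
      refine not_rows_prop g₀ hkl (c := (g₀ : Matrix ι ι F) l a)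
        (d := -(g₀ : Matrix ι ι F) k a) (hG l a) fun p => ?_
      obtain ⟨i, hi⟩ := exists_outside ({p, π p, a, π a} : Finset ι)
        (Finset.card_le_four.trans_lt (by omega))
      simp only [Finset.mem_insert, Finset.mem_singleton, not_or] at hi
      have h1 := mem_axis_iff.1 (hπ p) i hi.2.1
      have h2 := mem_axis_iff.1 (hπ a) i hi.2.2.2
      rw [col_eq', conj_torPair_apply g₀ hkl, Matrix.one_apply_ne hi.1, zero_add] at h1
      rw [col_eq', conj_torPair_apply g₀ hkl, Matrix.one_apply_ne hi.2.2.1, zero_add] at h2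
      refine (mul_eq_zero.1 (show (((δ : F) - 1) * ((g₀⁻¹ : GL ι F) : Matrix ι ι F) i k) *
        ((g₀ : Matrix ι ι F) l a * (g₀ : Matrix ι ι F) k p
          + -(g₀ : Matrix ι ι F) k a * (g₀ : Matrix ι ι F) l p) = 0 by
        linear_combination (g₀ : Matrix ι ι F) l a * h1 - (g₀ : Matrix ι ι F) l p * h2)).resolve_left
          (mul_ne_zero hδ (hU i k))
    · rw [conj_torPair_apply g₀ hkl, Matrix.one_apply_ne hab, zero_add]
      change ((δ : F) - 1) * α + ((δ : F)⁻¹ - 1) * β = 0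
      simp only [δ, Units.val_mk0, inv_div]
      field_simp
      ring
  refine not_rows_prop g₀ hkl (c := (g₀ : Matrix ι ι F) l k) (d := -(g₀ : Matrix ι ι F) k k)
    (hG l k) fun p => ?_
  obtain ⟨a, ha⟩ := exists_outside ({p, k} : Finset ι) (Finset.card_le_two.trans_lt (by omega))
  simp only [Finset.mem_insert, Finset.mem_singleton, not_or] at ha
  refine (mul_eq_zero.1 (show ((g₀⁻¹ : GL ι F) : Matrix ι ι F) a k *
    ((g₀ : Matrix ι ι F) l k * (g₀ : Matrix ι ι F) k p
      + -(g₀ : Matrix ι ι F) k k * (g₀ : Matrix ι ι F) l p) = 0 by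
    linear_combination (g₀ : Matrix ι ι F) l k * key a p ha.1
      - (g₀ : Matrix ι ι F) l p * key a k ha.2)).resolve_left (hU a k)

/-- A non-monomial element fixing an axis, in `M` or in its dual. -/
theorem exists_fix_or_dual [Fintype F] (hn : 6 ≤ Fintype.card ι) (hq : 5 ≤ Fintype.card F)
    (hT : ∀ d : ι → Fˣ, ∏ i, d i = 1 → dg d ∈ M) {g₀ : GL ι F} (hgM : g₀ ∈ M) (hg : ¬ IsMono g₀) :
    (∃ h ∈ M, ¬ IsMono h ∧ ∃ a b, (h : Matrix ι ι F) *ᵥ ax a ∈ Submodule.span F {ax b}) ∨
    ∃ h ∈ M, ¬ IsMono h ∧ ∃ a b, (dual h : Matrix ι ι F) *ᵥ ax a ∈ Submodule.span F {ax b} := by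
  classical
  by_contra hno
  push Not at hno
  obtain ⟨hno, hno'⟩ := hno
  have hU : ∀ h ∈ M, (∃ a b, (h : Matrix ι ι F) *ᵥ ax a ∈ Submodule.span F {ax b}) → IsMono h :=
    fun h hh ⟨a, b, hab⟩ => by_contra fun hm => hno h hh hm a b hab
  obtain ⟨ε, hε2, hε3⟩ := exists_generator hq
  have col_zero : ∀ g ∈ M, ¬ IsMono g → ∀ a k l, (g : Matrix ι ι F) k a = 0 →
      (g : Matrix ι ι F) l a = 0 → k = l :=
    fun g hg hgm a k l h1 h2 => card_zeros_le_one hT hU hε2 hε3 (by omega) hg hgm a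
      (by rw [col_eq']; exact h1) (by rw [col_eq']; exact h2)
  have hTd : ∀ d : ι → Fˣ, ∏ i, d i = 1 → dg d ∈ M.comap (dual (ι := ι) (F := F)) := fun d hd => by
    rw [Subgroup.mem_comap, dual_dg]
    exact hT _ (by rw [Finset.prod_inv_distrib, hd, inv_one])
  have hUd : ∀ h ∈ M.comap (dual (ι := ι) (F := F)),
      (∃ a b, (h : Matrix ι ι F) *ᵥ ax a ∈ Submodule.span F {ax b}) → IsMono h :=
    fun h hh ⟨a, b, hab⟩ => by_contra fun hm =>
      hno' (dual h) hh (fun e => hm (isMono_of_dual e)) a b (by rwa [dual_dual])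
  have row_zero : ∀ g ∈ M, ¬ IsMono g → ∀ k a b, (g : Matrix ι ι F) k a = 0 →
      (g : Matrix ι ι F) k b = 0 → a = b := by
    intro g hg hgm k a b h1 h2
    have hd : dual g⁻¹ ∈ M.comap (dual (ι := ι) (F := F)) := by
      rw [Subgroup.mem_comap, dual_dual]; exact M.inv_mem hg
    refine card_zeros_le_one hTd hUd hε2 hε3 (by omega) hd
      (fun e => hgm (inv_inv g ▸ (isMono_of_dual e).inv)) k ?_ ?_ <;>
      rw [col_eq', dual_apply, inv_inv, transpose_apply]
    · exact h1
    · exact h2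
  obtain ⟨g, hgM, hg, z, a, hza⟩ := exists_zero hn hT hgM hg
  set U : Matrix ι ι F := ((g⁻¹ : GL ι F) : Matrix ι ι F) with hUdef
  have hUM : g⁻¹ ∈ M := M.inv_mem hgM
  have hUm : ¬ IsMono g⁻¹ := fun h => hg (inv_inv g ▸ h.inv)
  have hw : ∀ p, p ≠ z → (g : Matrix ι ι F) p a ≠ 0 := fun p hp e =>
    hp (col_zero g hgM hg a p z e hza)
  set J : Finset ι := Finset.univ.erase z with hJdef
  have hmemJ : ∀ {p : ι}, p ∈ J ↔ p ≠ z := fun {p} => by simp [hJdef]
  have hJ5 : 5 ≤ J.card := by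
    rw [hJdef, Finset.card_erase_of_mem (Finset.mem_univ z), Finset.card_univ]; omega
  -- dependence of two rows of the inverse off `z` and one more place
  have dep : ∀ i j, i ≠ j → ∃ j₀, ∃ γ : F, ∀ p, p ≠ z → p ≠ j₀ → U i p = γ * U j p := by
    intro i j hij
    rcases Solve.solve_two_avoid hq (fun p => U i p) (fun p => U j p) J
      (Finset.card_pos.1 (by omega)) with h | h
    · exfalso
      obtain ⟨R, hRJ, hR4, hR⟩ := h
      obtain ⟨p, hpJ, hpR⟩ := Finset.exists_mem_notMem_of_card_lt_card (s := R) (t := J) (by omega)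
      have hpz := hmemJ.1 hpJ
      -- a solution not proportional to the column of `g`
      obtain ⟨t, ht0, e1, e2, htne⟩ : ∃ t : ι → F, (∀ r ∈ J, t r ≠ 0) ∧ (∑ r ∈ J, t r * U i r) = 0 ∧
          (∑ r ∈ J, t r * U j r) = 0 ∧ ¬ ∃ s : F, ∀ r ∈ J, t r = s * (g : Matrix ι ι F) r a := by
        obtain ⟨s, hs⟩ := Finset.exists_mem_notMem_of_card_lt_card (s := ({0, 1} : Finset F))
          (t := Finset.univ) (by rw [Finset.card_univ]; exact Finset.card_le_two.trans_lt (by omega))
        simp only [Finset.mem_univ, Finset.mem_insert, Finset.mem_singleton, not_or, true_and] at hs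
        set f : ι → F := fun r => if r = p then (g : Matrix ι ι F) r a else s * (g : Matrix ι ι F) r a
          with hf
        obtain ⟨t, ht0, htf, e1, e2, hav⟩ := hR f (fun r => (g : Matrix ι ι F) r a)
        refine ⟨t, fun r hr => ?_, e1, e2, ?_⟩
        · by_cases hrR : r ∈ R
          · exact ht0 r hrR
          · rw [htf r hrR, hf]
            dsimp only
            split_ifs
            · exact hw r (hmemJ.1 hr)
            · exact mul_ne_zero hs.1 (hw r (hmemJ.1 hr))
        · rintro ⟨c, hc⟩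
          have hp := hc p hpJ
          rw [htf p hpR, hf] at hp
          simp only [if_true] at hp
          have hc1 : c = 1 := mul_right_cancel₀ (hw p hpz) (by rw [one_mul]; exact hp.symm)
          rcases hav with h3 | ⟨r, hr, hre⟩
          · obtain ⟨r, hr, hrR⟩ := Finset.exists_mem_notMem_of_card_lt_card (s := insert p R) (t := J)
              ((Finset.card_insert_le _ _).trans_lt (by omega))
            rw [Finset.mem_insert, not_or] at hrR
            have h4 := hc r hr
            rw [htf r hrR.2, hf] at h4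
            simp only [hrR.1, if_false] at h4
            exact hs.2 (by rw [← hc1]; exact mul_right_cancel₀ (hw r (hmemJ.1 hr)) h4)
          · exact hre (by rw [hc r (hRJ hr), hc1, one_mul])
      -- the torus element
      let d : ι → Fˣ := fun r => if hr : r ∈ J then
        Units.mk0 (t r / (g : Matrix ι ι F) r a) (div_ne_zero (ht0 r hr) (hw r (hmemJ.1 hr))) else 1
      let u : ι → Fˣ := fun r => if r = z then (∏ p ∈ J, d p)⁻¹ else d r
      have hu : ∏ r, u r = 1 := by
        rw [← Finset.mul_prod_erase _ _ (Finset.mem_univ z), Finset.prod_congr rfl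
          fun r hr => (show u r = d r from if_neg (Finset.ne_of_mem_erase hr))]
        simp [u, hJdef]
      set A := g⁻¹ * dg u * g
      have hAM : A ∈ M := M.mul_mem (M.mul_mem hUM (hT u hu)) hgM
      set x : ι → F := fun r => if r = z then 0 else t r with hx
      have hAa : (A : Matrix ι ι F) *ᵥ ax a = U *ᵥ x := by
        rw [Units.val_mul, Units.val_mul, ← mulVec_mulVec, ← mulVec_mulVec]
        congr 1
        funext r
        rw [dg_mulVec, col_eq', hx]
        by_cases hr : r = z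
        · simp [hr, hza]
        · simp only [hr, if_false]
          rw [show u r = d r from if_neg hr, show d r = Units.mk0 _ _ from dif_pos (hmemJ.2 hr),
            Units.val_mk0, div_mul_cancel₀ _ (hw r hr)]
      have hzero : ∀ k, (∑ r ∈ J, t r * U k r) = 0 → (A : Matrix ι ι F) k a = 0 := by
        intro k hk
        rw [← col_eq', hAa]
        show ∑ r, U k r * x r = 0
        rw [← Finset.add_sum_erase _ _ (Finset.mem_univ z), hx]
        simp only [if_true, mul_zero, zero_add]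
        rw [← hk]
        refine Finset.sum_congr rfl fun r hr => ?_
        rw [if_neg (Finset.ne_of_mem_erase hr), mul_comm]
      refine hij (col_zero A hAM (fun hA => ?_) a i j (hzero i e1) (hzero j e2))
      obtain ⟨q, hq'⟩ := hA a
      obtain ⟨s, hs⟩ := Submodule.mem_span_singleton.1 hq'
      have hxg : x = s • ((g : Matrix ι ι F) *ᵥ ax q) := by
        rw [← mulVec_smul, hs, hAa, hUdef, mulVec_inv_mulVec]
      have hz0 := congrFun hxg z
      rw [hx] at hz0
      simp only [if_true, Pi.smul_apply, smul_eq_mul, col_eq'] at hz0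
      rcases mul_eq_zero.1 hz0.symm with hs0 | hgz
      · have := congrFun hxg p
        rw [hx] at this
        simp only [hpz, if_false, hs0, zero_smul, Pi.zero_apply] at this
        exact ht0 p hpJ this
      · obtain rfl := row_zero g hgM hg z q a hgz hza
        refine htne ⟨s, fun r hr => ?_⟩
        have := congrFun hxg r
        rw [hx] at this
        simpa [hmemJ.1 hr, col_eq'] using this
    · obtain ⟨j₀, -, c, e, hce, hrel⟩ := h
      refine ⟨j₀, -e / c, fun p hpz hpj => ?_⟩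
      have hc : c ≠ 0 := by
        intro hc
        obtain ⟨p₁, hp₁⟩ := exists_outside ({z, j₀} : Finset ι) (Finset.card_le_two.trans_lt (by omega))
        obtain ⟨p₂, hp₂⟩ := exists_outside ({z, j₀, p₁} : Finset ι)
          (Finset.card_le_three.trans_lt (by omega))
        simp only [Finset.mem_insert, Finset.mem_singleton, not_or] at hp₁ hp₂
        have he : e ≠ 0 := hce.resolve_left fun h => h hc
        have z1 := hrel p₁ (hmemJ.2 hp₁.1) hp₁.2
        have z2 := hrel p₂ (hmemJ.2 hp₂.1) hp₂.2.1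
        rw [hc, zero_mul, zero_add, mul_eq_zero] at z1 z2
        exact hp₂.2.2 (row_zero g⁻¹ hUM hUm j p₂ p₁ (z2.resolve_left he) (z1.resolve_left he))
      rw [div_mul_eq_mul_div, eq_div_iff hc]
      linear_combination hrel p (hmemJ.2 hpz) hpj
  obtain ⟨S, -, hScard⟩ := Finset.exists_subset_card_eq (s := (Finset.univ : Finset ι)) (n := 4)
    (by rw [Finset.card_univ]; omega)
  obtain ⟨l, hlS⟩ := Finset.card_pos.1 (by omega : 0 < S.card)
  have hT3 : (S.erase l).card = 3 := by rw [Finset.card_erase_of_mem hlS, hScard]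
  obtain ⟨k₁, k₂, k₃, h12, h13, h23, hS3⟩ := Finset.card_eq_three.1 hT3
  have hmem : ∀ k ∈ ({k₁, k₂, k₃} : Finset ι), k ≠ l := fun k hk =>
    Finset.ne_of_mem_erase (hS3 ▸ hk)
  choose P γ hPγ using fun k => fun h : k ≠ l => dep k l h
  set Dv : ∀ k, k ≠ l → ι → F := fun k hk p => U k p - γ k hk * U l p with hDv
  have hD0 : ∀ k hk p, p ≠ z → p ≠ P k hk → Dv k hk p = 0 := fun k hk p h1 h2 =>
    sub_eq_zero.2 (hPγ k hk p h1 h2)
  have two : ∀ (k : ι) (B : Finset ι), B.card ≤ 4 → ∃ p, p ∉ B ∧ U k p ≠ 0 := by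
    intro k B hB
    obtain ⟨p₁, hp₁⟩ := exists_outside B (by omega)
    obtain ⟨p₂, hp₂⟩ := exists_outside (insert p₁ B) ((Finset.card_insert_le _ _).trans_lt (by omega))
    rw [Finset.mem_insert, not_or] at hp₂
    by_cases h1 : U k p₁ = 0
    · exact ⟨p₂, hp₂.2, fun h2 => hp₂.1 (row_zero g⁻¹ hUM hUm k p₂ p₁ h2 h1)⟩
    · exact ⟨p₁, hp₁, h1⟩
  have hpair : ∀ k hk q hq, k ≠ q → P k hk ≠ P q hq → P k hk ≠ z → P q hq ≠ z →
      Dv k hk (P k hk) ≠ 0 → Dv q hq (P q hq) = 0 := by
    intro k hk q hq hkq hP hPz hPz' hk0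
    by_contra hq0
    obtain ⟨j, c, hc⟩ := dep k q hkq
    have hβ : γ k hk = c * γ q hq := by
      obtain ⟨u, hu, hu'⟩ := two l {z, j, P k hk, P q hq} Finset.card_le_four
      simp only [Finset.mem_insert, Finset.mem_singleton, not_or] at hu
      have e3 := hc u hu.1 hu.2.1
      rw [hPγ k hk u hu.1 hu.2.2.1, hPγ q hq u hu.1 hu.2.2.2] at e3
      exact mul_right_cancel₀ hu' (by linear_combination e3)
    have hlin : ∀ p, p ≠ z → p ≠ j → Dv k hk p = c * Dv q hq p := fun p h1 h2 => by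
      simp only [hDv]
      rw [hc p h1 h2, hβ]; ring
    by_cases hjk : P k hk = j
    · have h5 := hlin (P q hq) hPz' (fun e => hP (hjk.trans e.symm))
      rw [hD0 k hk _ hPz' (Ne.symm hP), eq_comm, mul_eq_zero] at h5
      rcases h5 with h6 | h6
      · obtain ⟨u, hu, hu'⟩ := two k {z, j} (Finset.card_le_two.trans (by omega))
        simp only [Finset.mem_insert, Finset.mem_singleton, not_or] at hu
        exact hu' (by rw [hc u hu.1 hu.2, h6, zero_mul])
      · exact hq0 h6
    · have h5 := hlin (P k hk) hPz hjk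
      rw [hD0 q hq _ hPz hP, mul_zero] at h5
      exact hk0 h5
  have m₁ := hmem k₁ (by simp)
  have m₂ := hmem k₂ (by simp)
  have m₃ := hmem k₃ (by simp)
  obtain ⟨j₀, hj₀⟩ : ∃ j₀, ∀ p, p ≠ z → p ≠ j₀ →
      Dv k₁ m₁ p = 0 ∧ Dv k₂ m₂ p = 0 ∧ Dv k₃ m₃ p = 0 := by
    have triv : ∀ k hk, (P k hk = z ∨ Dv k hk (P k hk) = 0) → ∀ p, p ≠ z → Dv k hk p = 0 := by
      intro k hk h p hp
      by_cases e : p = P k hk
      · rcases h with h | h
        · exact absurd (e.trans h) hp
        · rw [e]; exact h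
      · exact hD0 k hk p hp e
    have follow : ∀ k hk q hq, k ≠ q → ¬ (P k hk = z ∨ Dv k hk (P k hk) = 0) →
        ∀ p, p ≠ z → p ≠ P k hk → Dv q hq p = 0 := by
      intro k hk q hq hkq h p hp hpP
      push Not at h
      by_cases hP : P q hq = P k hk
      · exact hD0 q hq p hp (hP ▸ hpP)
      · refine triv q hq ?_ p hp
        by_contra hc; push Not at hc
        exact hc.2 (hpair k hk q hq hkq (Ne.symm hP) h.1 hc.1 h.2)
    by_cases h1 : P k₁ m₁ = z ∨ Dv k₁ m₁ (P k₁ m₁) = 0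
    · by_cases h2 : P k₂ m₂ = z ∨ Dv k₂ m₂ (P k₂ m₂) = 0
      · exact ⟨P k₃ m₃, fun p hp hp' => ⟨triv _ m₁ h1 p hp, triv _ m₂ h2 p hp, hD0 _ m₃ p hp hp'⟩⟩
      · exact ⟨P k₂ m₂, fun p hp hp' =>
          ⟨triv _ m₁ h1 p hp, hD0 _ m₂ p hp hp', follow _ m₂ _ m₃ h23 h2 p hp hp'⟩⟩
    · exact ⟨P k₁ m₁, fun p hp hp' =>
        ⟨hD0 _ m₁ p hp hp', follow _ m₁ _ m₂ h12 h1 p hp hp', follow _ m₁ _ m₃ h13 h1 p hp hp'⟩⟩
  let L : (Fin 3 → F) →ₗ[F] (Fin 2 → F) :=
    { toFun := fun ν => ![ν 0 * Dv k₁ m₁ z + ν 1 * Dv k₂ m₂ z + ν 2 * Dv k₃ m₃ z,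
        ν 0 * Dv k₁ m₁ j₀ + ν 1 * Dv k₂ m₂ j₀ + ν 2 * Dv k₃ m₃ j₀]
      map_add' := fun ν ν' => by funext i; fin_cases i <;> simp <;> ring
      map_smul' := fun s ν => by funext i; fin_cases i <;> simp <;> ring }
  have hninj : ¬ Function.Injective L := fun h => by
    have := LinearMap.finrank_le_finrank_of_injective h
    simp at this
  obtain ⟨ν, hν, hν0⟩ : ∃ ν, L ν = 0 ∧ ν ≠ 0 := by
    by_contra hc
    push Not at hc
    exact hninj ((injective_iff_map_eq_zero L).2 hc)
  have hsum : ∀ p, ν 0 * Dv k₁ m₁ p + ν 1 * Dv k₂ m₂ p + ν 2 * Dv k₃ m₃ p = 0 := by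
    intro p
    by_cases hpz : p = z
    · rw [hpz]; simpa [L] using congrFun hν 0
    by_cases hpj : p = j₀
    · rw [hpj]; simpa [L] using congrFun hν 1
    obtain ⟨e1, e2, e3⟩ := hj₀ p hpz hpj
    rw [e1, e2, e3]; ring
  set c : F := -(ν 0 * γ k₁ m₁ + ν 1 * γ k₂ m₂ + ν 2 * γ k₃ m₃)
  let v : ι → F := ν 0 • ax k₁ + ν 1 • ax k₂ + ν 2 • ax k₃ + c • ax l
  have hv : v ᵥ* U = 0 := by
    funext p
    simp only [v, add_vecMul, smul_vecMul, single_one_vecMul, Pi.add_apply, Pi.smul_apply,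
      smul_eq_mul, Pi.zero_apply, Matrix.row_apply]
    have := hsum p
    simp only [hDv] at this
    linear_combination this
  have hv0 : v = 0 := by
    rw [← Matrix.vecMul_one v, ← Units.val_one, ← inv_mul_cancel g, Units.val_mul, ← vecMul_vecMul,
      ← hUdef, hv, Matrix.zero_vecMul]
  refine hν0 (funext fun i => ?_)
  fin_cases i
  · simpa [v, h12, h13, m₁] using congrFun hv0 k₁
  · simpa [v, Ne.symm h12, h23, m₂] using congrFun hv0 k₂
  · simpa [v, Ne.symm h13, Ne.symm h23, m₃] using congrFun hv0 k₃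

end CfsgLib.SLGeo91.MonoFixSix
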