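import Cfsg.Agent.OrthGeo.SimilarityMaximal

/-! The similarity group of a quadratic form is maximal in the special linear group, odd
characteristic, dimension at least six (adapted from OrthGeo.SimilarityMaximal). -/

set_option autoImplicit false
set_option linter.unusedSectionVars false

namespace CfsgLib.SLGeo91.OrthSim

open Cfsg.Geo Module CfsgLib.OrthGeo
open scoped Matrix MatrixGroups commutatorElement

variable {ι : Type} [Fintype ι] [DecidableEq ι] {F : Type*} [Field F]
variable {Q : (ι → F) → F}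
variable (hQ : IsNondegenerateQuadraticForm Q)
variable {H : Subgroup (GL ι F)}
variable [Finite F]

include hQ

omit [Finite F] in
lemma finrank_span_three_le (a b c : ι → F) :
    finrank F ↥((Submodule.span F {a} ⊔ Submodule.span F {b}) ⊔ Submodule.span F {c}) ≤ 3 := by
  have := Submodule.finrank_add_le_finrank_add_finrank (Submodule.span F {a} ⊔ Submodule.span F {b})
    (Submodule.span F {c})
  have := finrank_span_pair_le hQ a b
  have : finrank F (Submodule.span F ({c} : Set (ι → F))) ≤ 1 :=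
    (finrank_span_le_card _).trans (by simp)
  omega

/-- An element of Omega fixing a small subspace and moving a vector outside it. -/
lemma exists_omega_move (hn : 6 ≤ Fintype.card ι) (h2F : (2 : F) ≠ 0) {P : Submodule F (ι → F)}
    (hP : finrank F P ≤ 3) {c : ι → F} (hc : c ∉ P) :
    ∃ g ∈ omegaGL Q, (∀ x ∈ P, (g : Matrix ι ι F) *ᵥ x = x) ∧ (g : Matrix ι ι F) *ᵥ c ≠ c := by
  have hdim := finrank_perp_add hQ P
  -- it is enough to find the vectors of the Eichler element
  suffices h : ∃ u w, u ≠ 0 ∧ Q u = 0 ∧ u ∈ perp hQ P ∧ w ∈ perp hQ P ∧ bform hQ u w = 0 ∧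
      ((bform hQ u c ≠ 0 ∧ w ∉ Submodule.span F {u}) ∨ (bform hQ u c = 0 ∧ bform hQ w c ≠ 0)) by
    obtain ⟨u, w, hu0, huQ, huP, hwP, huw, hcase⟩ := h
    refine ⟨_, eichler_mem_omega hQ (by omega) huQ huw, fun x hx => eichler_fix hQ huQ huw ?_ ?_, fun hfix => ?_⟩
    · rw [b_symm hQ]; exact huP x hx
    · rw [b_symm hQ]; exact hwP x hx
    rw [eichler_mulVec hQ] at hfix
    rcases hcase with ⟨h1, h2⟩ | ⟨h1, h2⟩
    · refine h2 (Submodule.mem_span_singleton.2 ⟨(bform hQ w c - Q w * bform hQ u c) / bform hQ u c, ?_⟩)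
      have e : bform hQ w c • u - bform hQ u c • w - (Q w * bform hQ u c) • u = 0 :=
        add_left_cancel (a := c) (by rw [add_zero]; convert hfix using 1; abel)
      rw [div_eq_inv_mul, ← smul_smul, inv_smul_eq_iff₀ h1, sub_smul, ← sub_eq_zero]
      convert e using 1; abel
    · rw [h1, zero_smul, sub_zero, mul_zero, zero_smul, sub_zero] at hfix
      exact hu0 ((smul_eq_zero.1 (add_left_cancel (a := c) (hfix.trans (add_zero c).symm))).resolve_left h2)
  have hne : ∀ {T : Submodule F (ι → F)} (u : ι → F), 3 ≤ finrank F T →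
      ∃ w ∈ T, bform hQ u w = 0 ∧ w ∉ Submodule.span F {u} := by
    intro T u hT
    have h1 := Submodule.finrank_sup_add_finrank_inf_eq T (perp hQ (Submodule.span F {u}))
    have h2 := finrank_perp_add hQ (Submodule.span F {u})
    have h3 : finrank F (Submodule.span F ({u} : Set (ι → F))) ≤ 1 :=
      (finrank_span_le_card _).trans (by simp)
    have h4 := Submodule.finrank_le (T ⊔ perp hQ (Submodule.span F {u}))
    rw [finrank_fintype_fun_eq_card] at h4
    obtain ⟨w, hw, hwu⟩ := SetLike.not_le_iff_exists.1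
      (show ¬ T ⊓ perp hQ (Submodule.span F {u}) ≤ Submodule.span F {u} from fun hle => by
        have := Submodule.finrank_mono hle; omega)
    exact ⟨w, hw.1, (mem_perp_span_singleton hQ).1 hw.2, hwu⟩
  by_cases hrad : ∃ u ∈ P, u ∈ perp hQ P ∧ u ≠ 0
  · obtain ⟨u, hu, huP, hu0⟩ := hrad
    have huQ : Q u = 0 := by
      have := huP u hu
      rw [b_self hQ] at this
      exact (mul_eq_zero.1 this).resolve_left h2F
    by_cases huc : bform hQ u c = 0
    · obtain ⟨w, hwP, hwc⟩ : ∃ w ∈ perp hQ P, bform hQ w c ≠ 0 := by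
        by_contra! hall
        exact hc (perp_perp hQ P ▸ hall)
      exact ⟨u, w, hu0, huQ, huP, hwP, hwP u hu, Or.inr ⟨huc, hwc⟩⟩
    · obtain ⟨w, hwP, huw, hwu⟩ := hne u (T := perp hQ P) (by omega)
      exact ⟨u, w, hu0, huQ, huP, hwP, huw, Or.inl ⟨huc, hwu⟩⟩
  · push Not at hrad
    have hT : ∀ x ∈ perp hQ P, x ∈ perp hQ (perp hQ P) → x = 0 := fun x hx hx' =>
      hrad x (perp_perp hQ P ▸ hx') hx
    obtain ⟨y, hy, hyc⟩ : ∃ y ∈ perp hQ P, bform hQ y c ≠ 0 := by
      by_contra! hall
      exact hc (perp_perp hQ P ▸ hall)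
    obtain ⟨s, hs, t, ht, hsQ, htQ, rfl⟩ := exists_two_singular hQ hT (by omega) hy
    obtain ⟨u, hu, huQ, huc⟩ : ∃ u ∈ perp hQ P, Q u = 0 ∧ bform hQ u c ≠ 0 := by
      by_cases h : bform hQ s c = 0
      · exact ⟨t, ht, htQ, by rwa [map_add, LinearMap.add_apply, h, zero_add] at hyc⟩
      · exact ⟨s, hs, hsQ, h⟩
    obtain ⟨w, hwP, huw, hwu⟩ := hne u (T := perp hQ P) (by omega)
    exact ⟨u, w, fun h0 => huc (by rw [h0, map_zero, LinearMap.zero_apply]), huQ, hu, hwP, huw,
      Or.inl ⟨huc, hwu⟩⟩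

/-- A singular vector perpendicular to one vector and not to another. -/
lemma exists_singular_sep (hn : 6 ≤ Fintype.card ι) (h2F : (2 : F) ≠ 0) {a c : ι → F}
    (hc : c ∉ Submodule.span F {a}) : ∃ u, bform hQ a u = 0 ∧ Q u = 0 ∧ bform hQ c u ≠ 0 := by
  obtain ⟨z, hz, hzc⟩ : ∃ z, bform hQ a z = 0 ∧ bform hQ z c ≠ 0 := by
    by_contra! hall
    exact hc (perp_perp hQ (Submodule.span F {a}) ▸ fun z hz =>
      hall z ((mem_perp_span_singleton hQ).1 hz))
  by_cases hQa : Q a = 0
  · by_cases ha : a = 0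
    · subst ha
      obtain ⟨s, -, t, -, hsQ, htQ, rfl⟩ := exists_two_singular hQ (W := ⊤)
        (fun x _ hx => (b_nondeg hQ).1 x fun y => (b_symm hQ x y).trans (hx y Submodule.mem_top))
        (by rw [finrank_top, finrank_fintype_fun_eq_card]; omega) (w := z) Submodule.mem_top
      rw [map_add, LinearMap.add_apply, b_symm hQ s, b_symm hQ t] at hzc
      by_cases h : bform hQ c s = 0
      · exact ⟨t, by rw [map_zero, LinearMap.zero_apply], htQ, by rwa [h, zero_add] at hzc⟩
      · exact ⟨s, by rw [map_zero, LinearMap.zero_apply], hsQ, h⟩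
    obtain ⟨e, he, hae⟩ := exists_partner hQ hQa ha
    set T := perp hQ (Submodule.span F {a} ⊔ Submodule.span F {e}) with hT
    have hTn : ∀ x ∈ T, x ∈ perp hQ T → x = 0 := by
      intro x hx hx'
      rw [hT, perp_perp hQ] at hx'
      obtain ⟨_, k1, _, k2, rfl⟩ := Submodule.mem_sup.1 hx'
      obtain ⟨r, rfl⟩ := Submodule.mem_span_singleton.1 k1
      obtain ⟨s, rfl⟩ := Submodule.mem_span_singleton.1 k2
      obtain ⟨e1, e2⟩ := (mem_perp_pair hQ).1 hx
      simp only [map_add, map_smul, smul_eq_mul, b_self_eq_zero hQ hQa, hae, b_self_eq_zero hQ he,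
        b_symm hQ e a] at e1 e2
      rw [show r = 0 by linear_combination e2, show s = 0 by linear_combination e1, zero_smul, zero_smul, add_zero]
    have hTd : 3 ≤ finrank F T := by
      have := finrank_perp_add hQ (Submodule.span F {a} ⊔ Submodule.span F {e})
      have := finrank_span_pair_le hQ a e
      rw [hT]; omega
    by_cases hca : bform hQ c a = 0
    · have hz' : z - bform hQ e z • a ∈ T := (mem_perp_pair hQ).2
        ⟨by rw [map_sub, map_smul, hz, b_self_eq_zero hQ hQa, smul_zero, sub_zero],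
         by rw [map_sub, map_smul, b_symm hQ e a, hae, smul_eq_mul, mul_one, sub_self]⟩
      obtain ⟨s, hs, t, ht, hsQ, htQ, est⟩ := exists_two_singular hQ hTn hTd hz'
      have hne : bform hQ c (s + t) ≠ 0 := by
        rw [← est, map_sub, map_smul, hca, smul_zero, sub_zero, b_symm hQ]; exact hzc
      rw [map_add] at hne
      by_cases h : bform hQ c s = 0
      · exact ⟨t, ((mem_perp_pair hQ).1 ht).1, htQ, by rwa [h, zero_add] at hne⟩
      · exact ⟨s, ((mem_perp_pair hQ).1 hs).1, hsQ, h⟩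
    · exact ⟨a, b_self_eq_zero hQ hQa, hQa, hca⟩
  · have h2 : bform hQ a a ≠ 0 := by rw [b_self hQ]; exact mul_ne_zero h2F hQa
    set T := perp hQ (Submodule.span F {a}) with hT
    have hTn : ∀ x ∈ T, x ∈ perp hQ T → x = 0 := by
      intro x hx hx'
      rw [hT, perp_perp hQ] at hx'
      obtain ⟨r, rfl⟩ := Submodule.mem_span_singleton.1 hx'
      have := (mem_perp_span_singleton hQ).1 hx
      rw [map_smul, smul_eq_mul, mul_eq_zero] at this
      rw [this.resolve_right h2, zero_smul]
    have hTd : 3 ≤ finrank F T := by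
      have := finrank_perp_add hQ (Submodule.span F {a})
      have : finrank F (Submodule.span F ({a} : Set (ι → F))) ≤ 1 :=
        (finrank_span_le_card _).trans (by simp)
      rw [hT]; omega
    obtain ⟨s, hs, t, ht, hsQ, htQ, rfl⟩ := exists_two_singular hQ hTn hTd
      ((mem_perp_span_singleton hQ).2 hz : z ∈ T)
    rw [map_add, LinearMap.add_apply, b_symm hQ s, b_symm hQ t] at hzc
    by_cases h : bform hQ c s = 0
    · exact ⟨t, (mem_perp_span_singleton hQ).1 ht, htQ, by rwa [h, zero_add] at hzc⟩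
    · exact ⟨s, (mem_perp_span_singleton hQ).1 hs, hsQ, h⟩

/-- An additive invariant set of vectors perpendicular to `a` with one element outside its line is
everything perpendicular to `a`. -/
lemma full_of_invariant (hn : 6 ≤ Fintype.card ι) (h2F : (2 : F) ≠ 0) {a : ι → F}
    (C : AddSubgroup (ι → F))
    (hC : ∀ g ∈ omegaGL Q, (g : Matrix ι ι F) *ᵥ a = a → ∀ x ∈ C, (g : Matrix ι ι F) *ᵥ x ∈ C)
    {c : ι → F} (hc : c ∈ C) (hac : bform hQ a c = 0) (hind : c ∉ Submodule.span F {a}) :
    ∀ x, bform hQ a x = 0 → x ∈ C := by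
  have key : ∀ u, bform hQ a u = 0 → Q u = 0 → ∀ z ∈ C, bform hQ u z ≠ 0 →
      (∀ r : F, r • u ∈ C) ∧ ∀ w, bform hQ a w = 0 → bform hQ u w = 0 → w ∈ C := by
    intro u hau huQ z hz huz
    have hd : ∀ w, bform hQ a w = 0 → bform hQ u w = 0 →
        (bform hQ w z - Q w * bform hQ u z) • u - bform hQ u z • w ∈ C := by
      intro w haw huw
      have h1 := hC _ (eichler_mem_omega hQ (by omega) huQ huw)
        (eichler_fix hQ huQ huw (by rw [b_symm hQ]; exact hau) (by rw [b_symm hQ]; exact haw)) z hz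
      rw [eichler_mulVec hQ] at h1
      convert C.sub_mem h1 hz using 1
      module
    set W := perp hQ (Submodule.span F {a} ⊔ Submodule.span F {u}) with hW
    have hWd : 4 ≤ finrank F W := by
      have := finrank_perp_add hQ (Submodule.span F {a} ⊔ Submodule.span F {u})
      have := finrank_span_pair_le hQ a u
      rw [hW]; omega
    obtain ⟨w, hw, w', hw', hww⟩ : ∃ w ∈ W, ∃ w' ∈ W, bform hQ w w' ≠ 0 := by
      by_contra! hall
      have hle : W ≤ perp hQ W := fun x hx y hy => hall y hy x hx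
      rw [hW, perp_perp hQ] at hle
      rw [hW] at hWd
      have := Submodule.finrank_mono hle
      have := finrank_span_pair_le hQ a u
      omega
    have hu : ∀ r : F, r • u ∈ C := by
      intro r
      set μ := r / (bform hQ u z * bform hQ w w') with hμ
      obtain ⟨e1, e2⟩ := (mem_perp_pair hQ).1 hw
      obtain ⟨e3, e4⟩ := (mem_perp_pair hQ).1 hw'
      have h1 := hd w e1 e2
      have h2 := hd (μ • w') (by rw [map_smul, e3, smul_zero]) (by rw [map_smul, e4, smul_zero])
      have h3 := hd (w + μ • w') (by rw [map_add, map_smul, e1, e3, smul_zero, add_zero])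
        (by rw [map_add, map_smul, e2, e4, smul_zero, add_zero])
      have h4 := C.sub_mem (C.add_mem h1 h2) h3
      convert h4 using 1
      have hr : r = bform hQ u z * (μ * bform hQ w w') := by
        rw [hμ]; field_simp
      simp only [map_add, map_smul, LinearMap.add_apply, LinearMap.smul_apply, smul_eq_mul, q_add hQ,
        q_smul hQ]
      rw [hr]
      module
    refine ⟨hu, fun y hy hy' => ?_⟩
    set w := -(bform hQ u z)⁻¹ • y with hwdef
    have h1 := hd w (by rw [hwdef, map_smul, hy, smul_zero]) (by rw [hwdef, map_smul, hy', smul_zero])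
    have h2 := C.sub_mem h1 (hu (bform hQ w z - Q w * bform hQ u z))
    convert h2 using 1
    rw [hwdef, smul_smul, mul_neg, mul_inv_cancel₀ huz]
    module
  obtain ⟨u, hau, huQ, hcu⟩ := exists_singular_sep hQ hn h2F hind
  obtain ⟨hu, hW⟩ := key u hau huQ c hc (by rwa [b_symm hQ])
  -- a singular vector perpendicular to `a` with product one with `u`
  obtain ⟨z, hza, hzu⟩ : ∃ z, bform hQ a z = 0 ∧ bform hQ u z ≠ 0 := by
    by_contra! hall
    have hua : u ∈ Submodule.span F {a} := perp_perp hQ (Submodule.span F {a}) ▸ fun z hz => by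
      rw [b_symm hQ]; exact hall z ((mem_perp_span_singleton hQ).1 hz)
    obtain ⟨r, hr⟩ := Submodule.mem_span_singleton.1 hua
    exact hcu (by rw [← hr, map_smul, b_symm hQ c a, hac, smul_zero])
  set v := (bform hQ u z)⁻¹ • z - Q ((bform hQ u z)⁻¹ • z) • u with hv
  have hvQ : Q v = 0 := by
    rw [hv, sub_eq_add_neg, ← neg_smul, q_add hQ, q_smul hQ (-_), huQ, map_smul, smul_eq_mul,
      map_smul, LinearMap.smul_apply, smul_eq_mul, b_symm hQ z u, inv_mul_cancel₀ hzu]
    ring
  have hva : bform hQ a v = 0 := by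
    rw [hv, map_sub, map_smul, map_smul, hza, hau, smul_zero, smul_zero, sub_zero]
  have huv : bform hQ u v = 1 := by
    rw [hv, map_sub, map_smul, map_smul, smul_eq_mul, inv_mul_cancel₀ hzu, b_self_eq_zero hQ huQ,
      smul_zero, sub_zero]
  obtain ⟨hvC, -⟩ := key v hva hvQ u (by simpa using hu 1) (by rw [b_symm hQ, huv]; exact one_ne_zero)
  intro x hx
  have h1 := hW (x - bform hQ u x • v) (by rw [map_sub, map_smul, hx, hva, smul_zero, sub_zero])
    (by rw [map_sub, map_smul, huv, smul_eq_mul, mul_one, sub_self])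
  simpa using C.add_mem h1 (hvC (bform hQ u x))

/-- A transvection in an overgroup of Omega gives all of them. -/
lemma transvIn_all (hn : 6 ≤ Fintype.card ι) (h2F : (2 : F) ≠ 0) (hΩ : omegaGL Q ≤ H) {a c : ι → F}
    (h : TIn hQ H a c) (hca : bform hQ c a = 0) (ha0 : a ≠ 0) (hc0 : c ≠ 0) :
    ∀ x y : ι → F, bform hQ y x = 0 → TIn hQ H x y := by
  have hn5 : 5 ≤ Fintype.card ι := by omega
  have hzr : ∀ x : ι → F, TIn hQ H x 0 := fun x => ⟨1, H.one_mem, fun z => by simp [-bform_apply]⟩
  have right : ∀ a c, TIn hQ H a c → bform hQ c a = 0 → c ∉ Submodule.span F {a} →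
      ∀ x, bform hQ a x = 0 → TIn hQ H a x := by
    intro a c h hca hind x hx
    let C : AddSubgroup (ι → F) :=
      { carrier := {x | TIn hQ H a x ∧ bform hQ x a = 0}
        add_mem' := fun {p q} hp hq => ⟨hp.1.add_right hQ hq.1 hp.2,
          by rw [map_add, LinearMap.add_apply, hp.2, hq.2, add_zero]⟩
        zero_mem' := ⟨hzr a, by rw [map_zero, LinearMap.zero_apply]⟩
        neg_mem' := fun {p} hp => ⟨hp.1.neg_right hQ hp.2, by rw [map_neg, LinearMap.neg_apply, hp.2, neg_zero]⟩ }
    refine (full_of_invariant hQ hn h2F C (fun g hg hga y hy => ⟨?_, ?_⟩) (c := c) ⟨h, hca⟩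
      (by rw [b_symm hQ]; exact hca) hind x hx).1
    · have := hy.1.conj hQ (hΩ hg) (omegaGL_le hg)
      rwa [hga] at this
    · calc _ = bform hQ ((g : Matrix ι ι F) *ᵥ y) ((g : Matrix ι ι F) *ᵥ a) := by rw [hga]
        _ = 0 := by rw [isometry_b hQ (omegaGL_le hg), hy.2]
  have left : ∀ a c, TIn hQ H a c → bform hQ c a = 0 → a ∉ Submodule.span F {c} →
      ∀ x, bform hQ c x = 0 → TIn hQ H x c := by
    intro a c h hca hind x hx
    let C : AddSubgroup (ι → F) :=
      { carrier := {x | TIn hQ H x c ∧ bform hQ c x = 0}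
        add_mem' := fun {p q} hp hq => ⟨hp.1.add_left hQ hq.1 hq.2,
          by rw [map_add, hp.2, hq.2, add_zero]⟩
        zero_mem' := ⟨TIn.zero_left hQ c, map_zero _⟩
        neg_mem' := fun {p} hp => ⟨hp.1.neg_left hQ hp.2, by rw [map_neg, hp.2, neg_zero]⟩ }
    refine (full_of_invariant hQ hn h2F C (fun g hg hgc y hy => ⟨?_, ?_⟩) (c := a) ⟨h, hca⟩ hca hind x hx).1
    · have := hy.1.conj hQ (hΩ hg) (omegaGL_le hg)
      rwa [hgc] at this
    · calc _ = bform hQ ((g : Matrix ι ι F) *ᵥ c) ((g : Matrix ι ι F) *ᵥ y) := by rw [hgc]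
        _ = 0 := by rw [isometry_b hQ (omegaGL_le hg), hy.2]
  obtain ⟨a', c', h', hca', ha'0, hind⟩ : ∃ a' c', TIn hQ H a' c' ∧ bform hQ c' a' = 0 ∧ a' ≠ 0 ∧
      c' ∉ Submodule.span F {a'} := by
    by_cases hind : c ∈ Submodule.span F {a}
    swap
    · exact ⟨a, c, h, hca, ha0, hind⟩
    obtain ⟨r, rfl⟩ := Submodule.mem_span_singleton.1 hind
    have hr : r ≠ 0 := by rintro rfl; exact hc0 (zero_smul F a)
    have haQ : Q a = 0 := by
      rw [map_smul, LinearMap.smul_apply, smul_eq_mul, b_self hQ] at hca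
      exact (mul_eq_zero.1 ((mul_eq_zero.1 hca).resolve_left hr)).resolve_left h2F
    obtain ⟨v, hv, hav⟩ := exists_partner hQ haQ ha0
    have hv0 : v ≠ 0 := by rintro rfl; rw [map_zero] at hav; exact zero_ne_one hav
    obtain ⟨s, hs, hsa⟩ := exists_map_singular hQ hn5 haQ hv ha0 hv0
    have hsΩ := eichlerGroup_le_omega hQ hn5 hs
    have hb := h.conj hQ (hΩ hsΩ) (omegaGL_le hsΩ)
    rw [Matrix.mulVec_smul, hsa] at hb
    obtain ⟨g, hg, hgx⟩ := h
    obtain ⟨k, hk, hkx⟩ := hb
    refine ⟨v + r • a, r • v - (r * r) • a, ⟨g * k * g⁻¹, H.mul_mem (H.mul_mem hg hk) (H.inv_mem hg), ?_⟩,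
      ?_, ?_, ?_⟩
    · intro x
      obtain ⟨z, rfl⟩ : ∃ z, x = (g : Matrix ι ι F) *ᵥ z := ⟨_, (mulVec_inv_cancel g x).symm⟩
      rw [Units.val_mul, Units.val_mul, ← Matrix.mulVec_mulVec, ← Matrix.mulVec_mulVec, inv_mulVec_cancel, hkx,
        Matrix.mulVec_add, Matrix.mulVec_smul, hgx v, hgx z]
      simp only [map_add, map_sub, map_smul, LinearMap.sub_apply, LinearMap.smul_apply, smul_eq_mul,
        b_self_eq_zero hQ haQ, b_symm hQ v a, hav]
      module
    · simp only [map_add, map_sub, map_smul, LinearMap.sub_apply, LinearMap.smul_apply, smul_eq_mul,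
        b_self_eq_zero hQ haQ, b_self_eq_zero hQ hv, b_symm hQ v a, hav]
      ring
    · intro h0
      have := congrArg (bform hQ a) h0
      simp [map_add, map_smul, b_self_eq_zero hQ haQ, hav, -bform_apply] at this
    · intro hm
      obtain ⟨t, ht⟩ := Submodule.mem_span_singleton.1 hm
      have e1 := congrArg (bform hQ a) ht
      have e2 := congrArg (bform hQ v) ht
      simp only [map_add, map_sub, map_smul, smul_eq_mul, b_self_eq_zero hQ haQ, b_self_eq_zero hQ hv,
        b_symm hQ v a, hav] at e1 e2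
      have h3 : r * r * (1 + 1) = 0 := by linear_combination e2 - r * e1
      rw [mul_eq_zero, one_add_one_eq_two] at h3
      exact h2F (h3.resolve_left (mul_ne_zero hr hr))
  intro x y hyx
  by_cases hy0 : y = 0
  · subst hy0; exact hzr x
  by_cases hx0 : x = 0
  · subst hx0; exact TIn.zero_left hQ y
  -- a bridge perpendicular to both first vectors
  obtain ⟨p, hp1, hp2, hp3, hp4⟩ : ∃ p, bform hQ a' p = 0 ∧ bform hQ x p = 0 ∧
      p ∉ Submodule.span F {a'} ∧ p ∉ Submodule.span F {x} := by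
    set T := perp hQ (Submodule.span F {a'} ⊔ Submodule.span F {x}) with hT
    have hTd : 4 ≤ finrank F T := by
      have := finrank_perp_add hQ (Submodule.span F {a'} ⊔ Submodule.span F {x})
      have := finrank_span_pair_le hQ a' x
      rw [hT]; omega
    obtain ⟨p, hp, hpn⟩ := SetLike.not_le_iff_exists.1
      (show ¬ T ≤ Submodule.span F {a'} ⊔ Submodule.span F {x} from fun hle => by
        have := Submodule.finrank_mono hle
        have := finrank_span_pair_le hQ a' x
        omega)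
    obtain ⟨e1, e2⟩ := (mem_perp_pair hQ).1 hp
    exact ⟨p, e1, e2, fun hm => hpn (Submodule.mem_sup_left hm), fun hm => hpn (Submodule.mem_sup_right hm)⟩
  have h1 := right a' c' h' hca' hind p hp1
  have h2 := left a' p h1 (by rw [b_symm hQ]; exact hp1) (not_mem_span_symm hQ hp3 ha'0) x
    (by rw [b_symm hQ]; exact hp2)
  exact right x p h2 (by rw [b_symm hQ]; exact hp2) hp4 y (by rw [b_symm hQ]; exact hyx)

/-- The similarity group is maximal in the special linear group. -/
theorem similarity_isMaximal (hn : 6 ≤ Fintype.card ι) (h2F : (2 : F) ≠ 0) :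
    IsMaximalIn (Cfsg.Geo.specialLinear ι F) (quadSimilarityGroup Q ⊓ Cfsg.Geo.specialLinear ι F) := by
  have hn5 : 5 ≤ Fintype.card ι := by omega
  refine ⟨lt_of_le_not_ge inf_le_right fun hle => ?_, fun M hPM hMS => ?_⟩
  · obtain ⟨u, -, hu0, hu⟩ := exists_singular hQ (S := ⊤) (by rw [finrank_top, finrank_fintype_fun_eq_card]; omega)
    obtain ⟨v, hv, huv⟩ := exists_partner hQ hu hu0
    obtain ⟨⟨c, hc⟩, -⟩ := hle (CfsgLib.TransvGL.transv_mem_specialLinear (φ := bform hQ u) (v := u)
      (b_self_eq_zero hQ hu))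
    have h1 := hc v
    rw [CfsgLib.TransvGL.transv_mulVec, huv, one_smul, q_add hQ, hv, hu, b_symm hQ v u, huv] at h1
    simp at h1
  by_cases hMP : M ≤ quadSimilarityGroup Q ⊓ Cfsg.Geo.specialLinear ι F
  · exact Or.inl (le_antisymm hMP hPM)
  refine Or.inr (le_antisymm hMS ?_)
  have hΩ : omegaGL Q ≤ M := fun g hg => hPM ⟨⟨1, fun v => by
    rw [Units.val_one, one_mul, mem_isometryGroup.1 (omegaGL_le hg)]⟩, omegaGL_le_specialLinear hQ hg⟩
  obtain ⟨g, hgM, hgP⟩ := SetLike.not_le_iff_exists.1 hMP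
  obtain ⟨u, hu, hgu⟩ : ∃ u, Q u = 0 ∧ Q ((g : Matrix ι ι F) *ᵥ u) ≠ 0 := by
    by_contra hc
    push Not at hc
    exact hgP ⟨similarity_of_singular hQ hn5 hc, hMS hgM⟩
  have hu0 : u ≠ 0 := by rintro rfl; exact hgu (by rw [Matrix.mulVec_zero, q_zero hQ])
  obtain ⟨w, hwP, hwQ, hw0, hwu⟩ := exists_singular_perp_avoid hQ (Submodule.span F {u})
    (by rw [finrank_span_singleton hu0]; omega)
  have huw : bform hQ u w = 0 := (mem_perp_span_singleton hQ).1 hwP
  -- the adjoint inverse of `g`
  have hadj : ∀ z, ∃ z', ∀ x, bform hQ z' ((g : Matrix ι ι F) *ᵥ x) = bform hQ z x := by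
    intro z
    obtain ⟨z', hz'⟩ : ∃ z', bform hQ z' = (bform hQ z).comp (Matrix.toLin' ((g⁻¹ : GL ι F) : Matrix ι ι F)) := by
      have hsurj : Function.Surjective (bform hQ) :=
        (LinearMap.injective_iff_surjective_of_finrank_eq_finrank (Subspace.dual_finrank_eq).symm).1
          (LinearMap.ker_eq_bot.1 ((Submodule.eq_bot_iff _).2 fun z hz => (b_nondeg hQ).1 z fun y => LinearMap.congr_fun hz y))
      exact hsurj _
    exact ⟨z', fun x => by rw [hz', LinearMap.comp_apply, Matrix.toLin'_apply, inv_mulVec_cancel]⟩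
  obtain ⟨c, hc⟩ := hadj w
  obtain ⟨d, hd⟩ := hadj (-u)
  set a := (g : Matrix ι ι F) *ᵥ u with ha
  set b := (g : Matrix ι ι F) *ᵥ w with hb
  have r1 : bform hQ c a = 0 := by rw [ha, hc, b_symm hQ, huw]
  have r2 : bform hQ c b = 0 := by rw [hb, hc, b_self_eq_zero hQ hwQ]
  have r3 : bform hQ d a = 0 := by rw [ha, hd, map_neg, LinearMap.neg_apply, b_self_eq_zero hQ hu, neg_zero]
  have r4 : bform hQ d b = 0 := by rw [hb, hd, map_neg, LinearMap.neg_apply, huw, neg_zero]
  obtain ⟨k, hk, hkx⟩ : ∃ k ∈ M, ∀ x, (k : Matrix ι ι F) *ᵥ x = x + bform hQ c x • a + bform hQ d x • b := by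
    refine ⟨g * eichler hQ hu huw * g⁻¹,
      M.mul_mem (M.mul_mem hgM (hΩ (eichler_mem_omega hQ hn5 hu huw))) (M.inv_mem hgM), fun x => ?_⟩
    obtain ⟨y, rfl⟩ : ∃ y, x = (g : Matrix ι ι F) *ᵥ y := ⟨_, (mulVec_inv_cancel g x).symm⟩
    rw [Units.val_mul, Units.val_mul, ← Matrix.mulVec_mulVec, ← Matrix.mulVec_mulVec, inv_mulVec_cancel,
      eichler_mulVec hQ, hwQ, hc, hd, map_neg, LinearMap.neg_apply]
    simp only [Matrix.mulVec_sub, Matrix.mulVec_add, Matrix.mulVec_smul, ← ha, ← hb]
    module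
  have haQ : bform hQ a a ≠ 0 := by rw [b_self hQ]; exact mul_ne_zero h2F hgu
  -- the main step
  have step : ∀ a b c d : ι → F, bform hQ c a = 0 → bform hQ c b = 0 → bform hQ d a = 0 → bform hQ d b = 0 →
      (∃ k ∈ M, ∀ x, (k : Matrix ι ι F) *ᵥ x = x + bform hQ c x • a + bform hQ d x • b) →
      c ∉ (Submodule.span F {a} ⊔ Submodule.span F {b}) ⊔ Submodule.span F {d} →
      ∃ a' c', TIn hQ M a' c' ∧ bform hQ c' a' = 0 ∧ a' = a ∧ c' ≠ 0 := by
    intro a b c d r1 r2 r3 r4 hk hc
    set P' := (Submodule.span F {a} ⊔ Submodule.span F {b}) ⊔ Submodule.span F {d} with hP'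
    obtain ⟨s, hs, hfix, hmove⟩ := exists_omega_move hQ hn h2F
      (finrank_span_three_le hQ a b d) hc
    have haP : a ∈ P' := Submodule.mem_sup_left (Submodule.mem_sup_left (Submodule.mem_span_singleton_self a))
    have hbP : b ∈ P' := Submodule.mem_sup_left (Submodule.mem_sup_right (Submodule.mem_span_singleton_self b))
    have hdP : d ∈ P' := Submodule.mem_sup_right (Submodule.mem_span_singleton_self d)
    have hsI := omegaGL_le hs
    obtain ⟨k, hk, hkx⟩ := hk
    set p := (s : Matrix ι ι F) *ᵥ c - c with hp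
    have hsc : (s : Matrix ι ι F) *ᵥ c = c + p := by rw [hp, add_sub_cancel]
    have hpa : bform hQ p a = 0 := by
      have e := isometry_b hQ hsI c a
      rw [hfix a haP] at e
      rw [hp, map_sub, LinearMap.sub_apply, e, sub_self]
    have hpb : bform hQ p b = 0 := by
      have e := isometry_b hQ hsI c b
      rw [hfix b hbP] at e
      rw [hp, map_sub, LinearMap.sub_apply, e, sub_self]
    have hp0 : p ≠ 0 := sub_ne_zero.2 hmove
    refine ⟨a, p, ⟨s * k * s⁻¹ * k⁻¹, M.mul_mem (M.mul_mem (M.mul_mem (hΩ hs) hk) (M.inv_mem (hΩ hs))) (M.inv_mem hk),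
      fun x => ?_⟩, hpa, rfl, hp0⟩
    have hconj : ∀ y, ((s * k * s⁻¹ : GL ι F) : Matrix ι ι F) *ᵥ y =
        y + bform hQ (c + p) y • a + bform hQ d y • b := by
      intro y
      obtain ⟨z, rfl⟩ : ∃ z, y = (s : Matrix ι ι F) *ᵥ z := ⟨_, (mulVec_inv_cancel s y).symm⟩
      have e1 := isometry_b hQ hsI c z
      have e2 := isometry_b hQ hsI d z
      rw [hsc] at e1
      rw [hfix d hdP] at e2
      rw [Units.val_mul, Units.val_mul, ← Matrix.mulVec_mulVec, ← Matrix.mulVec_mulVec, inv_mulVec_cancel, hkx,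
        Matrix.mulVec_add, Matrix.mulVec_add, Matrix.mulVec_smul, Matrix.mulVec_smul, hfix a haP, hfix b hbP, e1, e2]
    obtain ⟨y, rfl⟩ : ∃ y, x = (k : Matrix ι ι F) *ᵥ y := ⟨_, (mulVec_inv_cancel k x).symm⟩
    rw [Units.val_mul, ← Matrix.mulVec_mulVec, inv_mulVec_cancel, hconj, hkx]
    simp only [map_add, map_smul, LinearMap.add_apply, smul_eq_mul, hpa, hpb]
    module
  have hswap : ∃ k ∈ M, ∀ x, (k : Matrix ι ι F) *ᵥ x = x + bform hQ d x • b + bform hQ c x • a :=
    ⟨k, hk, fun x => by rw [hkx, add_right_comm]⟩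
  have ha0 : a ≠ 0 := fun h0 => hgu (by rw [h0, q_zero hQ])
  have hgz : ∀ z, (g : Matrix ι ι F) *ᵥ z = 0 → z = 0 := fun z hz => by
    rw [← inv_mulVec_cancel g z, hz, Matrix.mulVec_zero]
  have hab : b ∉ Submodule.span F {a} := by
    intro hm
    obtain ⟨r, hr⟩ := Submodule.mem_span_singleton.1 hm
    exact hwu (Submodule.mem_span_singleton.2 ⟨r, sub_eq_zero.1 (hgz _ (by
      rw [Matrix.mulVec_sub, Matrix.mulVec_smul, ← ha, ← hb, hr, sub_self]))⟩)
  have hb0 : b ≠ 0 := fun h0 => hab (h0 ▸ zero_mem _)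
  obtain ⟨a', c', hT, hc'a', ha'0, hc'0⟩ : ∃ a' c', TIn hQ M a' c' ∧ bform hQ c' a' = 0 ∧ a' ≠ 0 ∧ c' ≠ 0 := by
    by_cases hcase : c ∈ (Submodule.span F {a} ⊔ Submodule.span F {b}) ⊔ Submodule.span F {d}
    swap
    · obtain ⟨a', c', h1, h2, rfl, h4⟩ := step a b c d r1 r2 r3 r4 ⟨k, hk, hkx⟩ hcase
      exact ⟨a, c', h1, h2, ha0, h4⟩
    obtain ⟨l, hl, z, hz, e⟩ := Submodule.mem_sup.1 hcase
    obtain ⟨γ, rfl⟩ := Submodule.mem_span_singleton.1 hz
    by_cases hdL : d ∈ Submodule.span F {a} ⊔ Submodule.span F {b}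
    swap
    · -- rewrite the element so that the second functional leaves the span
      have hl0 : bform hQ l a = 0 := by
        rw [eq_sub_of_add_eq e, map_sub, map_smul, LinearMap.sub_apply, LinearMap.smul_apply, r1, r3, smul_zero, sub_zero]
      have hl1 : bform hQ l b = 0 := by
        rw [eq_sub_of_add_eq e, map_sub, map_smul, LinearMap.sub_apply, LinearMap.smul_apply, r2, r4, smul_zero, sub_zero]
      obtain ⟨a', c', h1, h2, rfl, h4⟩ := step (b + γ • a) a d l
        (by rw [map_add, map_smul, r4, r3, smul_zero, add_zero]) r3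
        (by rw [map_add, map_smul, hl1, hl0, smul_zero, add_zero]) hl0
        ⟨k, hk, fun x => by rw [hkx, ← e, map_add, map_smul, LinearMap.add_apply, LinearMap.smul_apply]; module⟩
        (fun hm => hdL ((sup_le (sup_le ((Submodule.span_singleton_le_iff_mem _ _).2
            (Submodule.add_mem _ (Submodule.mem_sup_right (Submodule.mem_span_singleton_self b))
              (Submodule.mem_sup_left (Submodule.smul_mem _ γ (Submodule.mem_span_singleton_self a)))))
          le_sup_left) ((Submodule.span_singleton_le_iff_mem _ _).2 hl) : _ ≤ _) hm))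
      refine ⟨_, c', h1, h2, fun h0 => hab ?_, h4⟩
      rw [show b = -(γ • a) from eq_neg_of_add_eq_zero_left h0]
      exact Submodule.neg_mem _ (Submodule.smul_mem _ γ (Submodule.mem_span_singleton_self a))
    -- otherwise the image of the singular line is totally singular
    exfalso
    have hcL : c ∈ Submodule.span F {a} ⊔ Submodule.span F {b} := by
      rw [← e]; exact Submodule.add_mem _ hl (Submodule.smul_mem _ γ hdL)
    have hind : ∀ r s : F, r • c + s • d = 0 → r = 0 ∧ s = 0 := by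
      intro r s h0
      have h1 : ∀ x, bform hQ (r • w + s • (-u)) x = 0 := fun x => by
        have h3 : bform hQ (r • c + s • d) ((g : Matrix ι ι F) *ᵥ x) = 0 := by
          rw [h0, map_zero, LinearMap.zero_apply]
        simp only [map_add, map_smul, LinearMap.add_apply, LinearMap.smul_apply, hc, hd] at h3 ⊢
        exact h3
      have h2 : r • w + s • (-u) = 0 := (b_nondeg hQ).1 _ h1
      have hr : r = 0 := by
        by_contra hr
        refine hwu ((Submodule.smul_mem_iff _ hr).1 ?_)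
        rw [eq_neg_of_add_eq_zero_left h2]
        exact Submodule.neg_mem _ (Submodule.smul_mem _ s (Submodule.neg_mem _ (Submodule.mem_span_singleton_self u)))
      refine ⟨hr, ?_⟩
      rw [hr, zero_smul, zero_add, smul_eq_zero, neg_eq_zero] at h2
      exact h2.resolve_right hu0
    obtain ⟨_, k1, _, k2, ec⟩ := Submodule.mem_sup.1 hcL
    obtain ⟨p, rfl⟩ := Submodule.mem_span_singleton.1 k1
    obtain ⟨p', rfl⟩ := Submodule.mem_span_singleton.1 k2
    obtain ⟨_, k3, _, k4, ed⟩ := Submodule.mem_sup.1 hdL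
    obtain ⟨t, rfl⟩ := Submodule.mem_span_singleton.1 k3
    obtain ⟨t', rfl⟩ := Submodule.mem_span_singleton.1 k4
    rw [← ec] at r1 r2
    rw [← ed] at r3 r4
    simp only [map_add, map_smul, LinearMap.add_apply, LinearMap.smul_apply, smul_eq_mul] at r1 r2 r3 r4
    have hdet : p * t' - p' * t ≠ 0 := by
      intro h0
      have h1 := hind t' (-p') (by
        rw [← ec, ← ed]
        match_scalars <;> [linear_combination h0; ring])
      have h2 := hind t (-p) (by
        rw [← ec, ← ed]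
        match_scalars <;> [ring; linear_combination -h0])
      have hp : p = 0 := by simpa using h2.2
      have hp' : p' = 0 := by simpa using h1.2
      have h3 := hind 1 0 (by rw [← ec, hp, hp']; simp)
      exact one_ne_zero h3.1
    have haa : bform hQ a a = 0 := by
      refine (mul_eq_zero.1 (show (p * t' - p' * t) * bform hQ a a = 0 from ?_)).resolve_left hdet
      linear_combination t' * r1 - p' * r3
    rw [b_self hQ] at haa
    exact hgu ((mul_eq_zero.1 haa).resolve_left h2F)
  have hall := transvIn_all hQ hn h2F hΩ hT hc'a' ha'0 hc'0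
  refine CfsgLib.TransvGL.specialLinear_le_of_transv_mem M fun φ v hv => ?_
  obtain ⟨y, hy⟩ : ∃ y, bform hQ y = φ :=
    (LinearMap.injective_iff_surjective_of_finrank_eq_finrank (Subspace.dual_finrank_eq).symm).1
      (LinearMap.ker_eq_bot.1 ((Submodule.eq_bot_iff _).2 fun z hz => (b_nondeg hQ).1 z fun y => LinearMap.congr_fun hz y)) φ
  obtain ⟨m, hm, hmx⟩ := hall v y (by rw [hy]; exact hv)
  rwa [show CfsgLib.TransvGL.transv hv = m from gl_ext fun x => by
    rw [CfsgLib.TransvGL.transv_mulVec, hmx, hy]]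

end CfsgLib.SLGeo91.OrthSim
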