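import Cfsg.Agent.Classical.UnitCentres
import Cfsg.Agent.Eq.Def_GeometricClasses
-- import your own Cfsg.Agent.* helpers here

/-!
Unitary similarities are maximal in the special linear group (adapted from S5643).
-/

set_option autoImplicit false
open Cfsg

namespace CfsgLib.SLGeo91.UnitSim

section

open Matrix CfsgLib.TransvGL CfsgLib.UnitCentres

variable {ι : Type} [Fintype ι] [DecidableEq ι] {F : Type*} [Field F]
variable {σ : F ≃+* F} {f : (ι → F) → (ι → F) → F}

/-- The transvection `x ↦ x + f x b • a` lies in `M`. -/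
def Mem (hf : Cfsg.Geo.IsUnitaryForm σ f) (M : Subgroup (GL ι F)) (a b : ι → F) : Prop :=
  ∃ h : upair hf b a = 0, transv h ∈ M

variable {hf : Cfsg.Geo.IsUnitaryForm σ f} {M : Subgroup (GL ι F)}

theorem mem_zero_left (b : ι → F) : Mem hf M 0 b := by
  refine ⟨map_zero _, ?_⟩
  convert one_mem M using 1
  exact ext_mulVec fun x => by simp [transv_mulVec]

theorem Mem.orth {a b : ι → F} (h : Mem hf M a b) : f a b = 0 := h.1

theorem Mem.sub {a b b' : ι → F} (h : Mem hf M a b) (h' : Mem hf M a b') : Mem hf M a (b - b') := by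
  obtain ⟨h1, h2⟩ := h
  obtain ⟨h3, h4⟩ := h'
  refine ⟨by rw [upair_apply, sub_right hf, ← upair_apply hf b, ← upair_apply hf b', h1, h3, sub_zero], ?_⟩
  convert M.mul_mem h2 (M.inv_mem h4) using 1
  rw [transv_inv, transv_mul_left]
  refine transv_congr _ _ fun x => ?_
  simp only [upair_apply, LinearMap.add_apply, LinearMap.neg_apply, sub_right hf]
  rw [sub_eq_add_neg]

theorem Mem.zero_right_of {a b : ι → F} (h : Mem hf M a b) : Mem hf M a 0 := by
  simpa using h.sub h

theorem Mem.neg {a b : ι → F} (h : Mem hf M a b) : Mem hf M a (-b) := by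
  simpa using h.zero_right_of.sub h

theorem Mem.add {a b b' : ι → F} (h : Mem hf M a b) (h' : Mem hf M a b') : Mem hf M a (b + b') := by
  simpa using h.sub h'.neg

theorem Mem.add_left {a a' b : ι → F} (h : Mem hf M a b) (h' : Mem hf M a' b) :
    Mem hf M (a + a') b := by
  obtain ⟨h1, h2⟩ := h
  obtain ⟨h3, h4⟩ := h'
  refine ⟨by rw [map_add, h1, h3, add_zero], ?_⟩
  convert M.mul_mem h2 h4 using 1
  refine ext_mulVec fun x => ?_
  rw [Units.val_mul, ← mulVec_mulVec, transv_mulVec, transv_mulVec, transv_mulVec, map_add, map_smul,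
    h3, smul_eq_mul, mul_zero, add_zero]
  module

theorem Mem.smul_left {a b : ι → F} {s : F} (h : Mem hf M a (σ s • b)) (hs : s ≠ 0) :
    Mem hf M (s • a) b := by
  obtain ⟨h1, h2⟩ := h
  have h3 : f a b = 0 := by
    rw [upair_apply, smul_right hf, hf.involutive, mul_eq_zero] at h1
    exact h1.resolve_left hs
  refine ⟨by rw [upair_apply, hf.smul_left, h3, mul_zero], ?_⟩
  convert h2 using 1
  refine transv_congr _ _ fun x => ?_
  rw [upair_apply, upair_apply, smul_right hf, hf.involutive, smul_smul, mul_comm]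

theorem Mem.image {a b : ι → F} (h : Mem hf M a b) {g : GL ι F} (hgM : g ∈ M) (hg : Iso f g) :
    Mem hf M ((g : Matrix ι ι F) *ᵥ a) ((g : Matrix ι ι F) *ᵥ b) := by
  obtain ⟨h1, h2⟩ := h
  refine ⟨by rw [upair_apply, hg]; exact h1, ?_⟩
  rw [← conj_transv g h1 _ rfl (fun x => by rw [upair_apply, upair_apply, hg])]
  exact M.mul_mem (M.mul_mem hgM h2) (M.inv_mem hgM)

/-- All transvections with centre `a` lie in `M`. -/
def Full (hf : Cfsg.Geo.IsUnitaryForm σ f) (M : Subgroup (GL ι F)) (a : ι → F) : Prop :=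
  ∀ b, f a b = 0 → Mem hf M a b

theorem Full.smul {a : ι → F} (h : Full hf M a) (s : F) : Full hf M (s • a) := fun b hb => by
  by_cases hs : s = 0
  · rw [hs, zero_smul]; exact mem_zero_left b
  · refine (h _ ?_).smul_left hs
    rw [hf.smul_left, mul_eq_zero] at hb
    rw [smul_right hf, hb.resolve_left hs, mul_zero]

theorem Full.image {a : ι → F} (h : Full hf M a) {g : GL ι F} (hgM : g ∈ M) (hg : Iso f g) :
    Full hf M ((g : Matrix ι ι F) *ᵥ a) := fun b hb => by
  rw [← mulVec_inv_mulVec g b]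
  refine (h _ ?_).image hgM hg
  rwa [← hg, mulVec_inv_mulVec]

section Generate

variable [Finite F] (hn : 6 ≤ Fintype.card ι)
include hn

/-- Three vectors, two of them not orthogonal, have a common orthogonal vector of norm one. -/
theorem exists_unit_orth_three (hf : Cfsg.Geo.IsUnitaryForm σ f) (S : Finset (ι → F))
    (hS : S.card ≤ 3) {w w' : ι → F} (hw : w ∈ S) (hw' : w' ∈ S) (hne : f w w' ≠ 0) :
    ∃ u, (∀ v ∈ S, f u v = 0) ∧ f u u = 1 := by
  obtain ⟨u, hu, hu0⟩ : ∃ u, (∀ v ∈ S, f u v = 0) ∧ f u u ≠ 0 := by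
    by_contra hno
    push Not at hno
    let L : (ι → F) →ₗ[F] (S → F) := LinearMap.pi fun v => upair hf (v : ι → F)
    have hker : ∀ x, x ∈ LinearMap.ker L ↔ ∀ v ∈ S, f x v = 0 := by
      intro x
      rw [LinearMap.mem_ker, funext_iff]
      exact ⟨fun hx v hv => hx ⟨v, hv⟩, fun hx v => hx v v.2⟩
    have horth : ∀ x ∈ LinearMap.ker L, ∀ y ∈ LinearMap.ker L, f x y = 0 := fun x hx y hy =>
      orth_of_isotropic hf (fun z hz => hno z ((hker z).1 hz)) hx hy
    have hle : LinearMap.ker L ≤ Submodule.span F (S : Set (ι → F)) := by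
      intro x hx
      by_contra hxS
      obtain ⟨d, hd, hxd⟩ := exists_orth_sep hf hxS
      exact hxd (horth x hx d ((hker d).2 fun v hv => orth_comm hf (hd v (Submodule.subset_span hv))))
    have h1 := LinearMap.finrank_range_add_finrank_ker L
    have h2 : Module.finrank F (LinearMap.range L) ≤ S.card :=
      (Submodule.finrank_le _).trans (by simp)
    have h3 : Module.finrank F (ι → F) = Fintype.card ι := Module.finrank_fintype_fun_eq_card F
    have h5 := finrank_span_finset_le_card (R := F) S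
    rw [Set.finrank] at h5
    have heq := Submodule.eq_of_le_of_finrank_le hle (by omega)
    exact hne (horth w (heq ▸ Submodule.subset_span hw) w' (heq ▸ Submodule.subset_span hw'))
  obtain ⟨l, hl⟩ := exists_norm hf (r := (f u u)⁻¹) (by rw [map_inv₀, norm_fixed hf])
  refine ⟨l • u, fun v hv => by rw [hf.smul_left, hu v hv, mul_zero], ?_⟩
  rw [hf.smul_left, smul_right hf, ← mul_assoc, hl, inv_mul_cancel₀ hu0]

/-- A hyperbolic pair orthogonal to two vectors. -/
theorem exists_hyperbolic_orth_two (hf : Cfsg.Geo.IsUnitaryForm σ f) (S : Finset (ι → F))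
    (h : S.card ≤ 2) :
    ∃ e e', (∀ w ∈ S, f e w = 0) ∧ (∀ w ∈ S, f e' w = 0) ∧ f e e = 0 ∧ f e' e' = 0 ∧ f e e' = 1 := by
  classical
  obtain ⟨u, hu, hu1⟩ := exists_unit_orth hf S (by omega)
  obtain ⟨v, hv, hv1⟩ := exists_unit_orth_three hn hf (insert u S)
    (by have := Finset.card_insert_le u S; omega) (Finset.mem_insert_self u S)
    (Finset.mem_insert_self u S) (by rw [hu1]; exact one_ne_zero)
  have hvu : f v u = 0 := hv u (Finset.mem_insert_self _ _)
  obtain ⟨l, hl⟩ := exists_norm hf (r := (-1 : F)) (by rw [map_neg, map_one])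
  set e := u + l • v with he
  have hee : f e e = 0 := by
    rw [he, norm_add_smul hf, hu1, hv1, hvu, orth_comm hf hvu]
    linear_combination hl
  have heu : f e u = 1 := by rw [he, hf.add_left, hf.smul_left, hu1, hvu, mul_zero, add_zero]
  obtain ⟨t, ht⟩ := exists_isotropic_shift hf hee (d := u) (by rw [heu]; exact one_ne_zero)
  have heS : ∀ w ∈ S, f e w = 0 := fun w hw => by
    rw [he, hf.add_left, hf.smul_left, hu w hw, hv w (Finset.mem_insert_of_mem hw), mul_zero, add_zero]
  refine ⟨e, u + t • e, heS, fun w hw => ?_, hee, ht, ?_⟩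
  · rw [hf.add_left, hf.smul_left, hu w hw, heS w hw, mul_zero, add_zero]
  · rw [add_right hf, smul_right hf, hee, heu, mul_zero, add_zero]

/-- A translate by something orthogonal to a small set is isotropic. -/
theorem exists_isotropic_add (hf : Cfsg.Geo.IsUnitaryForm σ f) (S : Finset (ι → F))
    (hS : S.card ≤ 3) (p : ι → F) (hp : ∀ x, (∀ w ∈ S, f x w = 0) → f x p = 0) {w w' : ι → F}
    (hw : w ∈ S) (hw' : w' ∈ S) (hne : f w w' ≠ 0) :
    ∃ z, (∀ w ∈ S, f z w = 0) ∧ f (p + z) (p + z) = 0 := by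
  obtain ⟨u, hu, huu⟩ := exists_unit_orth_three hn hf S hS hw hw' hne
  obtain ⟨l, hl⟩ := exists_norm hf (r := -f p p) (by rw [map_neg, norm_fixed hf])
  refine ⟨l • u, fun w hw => by rw [hf.smul_left, hu w hw, mul_zero], ?_⟩
  rw [norm_add_smul hf, huu, hp u hu, orth_comm hf (hp u hu)]
  linear_combination hl

/-- An isotropic vector meeting two given vectors. -/
theorem exists_isotropic_nonorth (hf : Cfsg.Geo.IsUnitaryForm σ f) {v w : ι → F} (hv : v ≠ 0)
    (hw : w ≠ 0) : ∃ e, f e e = 0 ∧ f e v ≠ 0 ∧ f e w ≠ 0 := by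
  classical
  obtain ⟨⟨z1, hz1⟩, -⟩ := hf.nondegenerate v hv
  obtain ⟨⟨z2, hz2⟩, -⟩ := hf.nondegenerate w hw
  obtain ⟨p, hp1, hp2⟩ : ∃ p, f p v ≠ 0 ∧ f p w ≠ 0 := by
    by_cases h1 : f z1 w = 0
    · by_cases h2 : f z2 v = 0
      · exact ⟨z1 + z2, by rw [hf.add_left, h2, add_zero]; exact hz1,
          by rw [hf.add_left, h1, zero_add]; exact hz2⟩
      · exact ⟨z2, h2, hz2⟩
    · exact ⟨z1, hz1, h1⟩
  obtain ⟨z, hz, hzz⟩ := exists_isotropic_add hn hf {p, v, w} Finset.card_le_three p
    (fun x hx => hx p (by simp)) (w := p) (w' := v) (by simp) (by simp) hp1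
  exact ⟨p + z, hzz, by rw [hf.add_left, hz v (by simp), add_zero]; exact hp1,
    by rw [hf.add_left, hz w (by simp), add_zero]; exact hp2⟩

theorem mem_of_chain (hU : ∀ v (hv : f v v = 0) c, c + σ c = 0 → uT hf hv c ∈ M) {a b z1 : ι → F}
    (h : Mem hf M a b) (hz1 : f z1 z1 = 0) (hz1a : f z1 a = 0) (hb : f b z1 ≠ 0) (t : F) :
    Mem hf M a (t • z1) := by
  classical
  obtain ⟨c, hc0, hc⟩ := exists_traceZero hf
  have step : ∀ b z, Mem hf M a b → f z z = 0 → f z a = 0 → Mem hf M a ((c * f b z) • z) := by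
    intro b z hb hz hza
    have h1 := hb.image (hU z hz c hc) (uT_iso hf hz hc)
    rw [uT_mulVec, uT_mulVec, orth_comm hf hza, mul_zero, zero_smul, add_zero] at h1
    simpa using h1.sub hb
  have hspan : z1 ∉ Submodule.span F {a} := by
    intro hm
    obtain ⟨k, rfl⟩ := Submodule.mem_span_singleton.1 hm
    rw [smul_right hf, orth_comm hf h.orth, mul_zero] at hb
    exact hb rfl
  obtain ⟨d, hd, hd'⟩ := exists_orth_sep hf hspan
  have hda : f d a = 0 := orth_comm hf (hd a (Submodule.mem_span_singleton_self a))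
  obtain ⟨r, hr⟩ := exists_isotropic_shift hf hz1 hd'
  have hne : f z1 (d + r • z1) ≠ 0 := by
    rw [add_right hf, smul_right hf, hz1, mul_zero, add_zero]; exact hd'
  set z2 := σ (f z1 (d + r • z1))⁻¹ • (d + r • z1) with hz2
  have h12 : f z1 z2 = 1 := by rw [hz2, smul_right hf, hf.involutive, inv_mul_cancel₀ hne]
  have h22 : f z2 z2 = 0 := by rw [hz2, hf.smul_left, smul_right hf, hr, mul_zero, mul_zero]
  have h2a : f z2 a = 0 := by
    rw [hz2, hf.smul_left, hf.add_left, hf.smul_left, hda, hz1a, mul_zero, add_zero, mul_zero]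
  have h21 : f z2 z1 = 1 := by rw [hf.herm, h12, map_one]
  set α := t / (c * c * c * c * f b z1) with hα
  obtain ⟨z, hz, hzz⟩ := exists_isotropic_add hn hf {z1, z2, a}
    Finset.card_le_three (α • z2 + z1)
    (fun x hx => by rw [add_right hf, smul_right hf, hx z2 (by simp), hx z1 (by simp), mul_zero, add_zero])
    (w := z1) (w' := z2) (by simp) (by simp) (by rw [h12]; exact one_ne_zero)
  set z3 := α • z2 + z1 + z with hz3
  have h23 : f z2 z3 = 1 := by
    rw [hz3, add_right hf, add_right hf, smul_right hf, h22, h21, orth_comm hf (hz z2 (by simp))]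
    ring
  have h31 : f z3 z1 = α := by
    rw [hz3, hf.add_left, hf.add_left, hf.smul_left, h21, hz1, hz z1 (by simp)]; ring
  have h3a : f z3 a = 0 := by
    rw [hz3, hf.add_left, hf.add_left, hf.smul_left, h2a, hz1a, hz a (by simp)]; ring
  have m1 := step b z1 h hz1 hz1a
  have m2 := step _ z2 m1 h22 h2a
  rw [hf.smul_left, h12, mul_one] at m2
  have m3 := step _ z3 m2 hzz h3a
  rw [hf.smul_left, h23, mul_one] at m3
  have m4 := step _ z1 m3 hz1 hz1a
  rw [hf.smul_left, h31] at m4
  have e : c * (c * (c * (c * f b z1)) * α) = t := by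
    rw [hα, show c * (c * (c * f b z1)) = c * c * c * f b z1 by ring]
    field_simp
  rwa [e] at m4

theorem full_of_mem (hU : ∀ v (hv : f v v = 0) c, c + σ c = 0 → uT hf hv c ∈ M) {a b : ι → F}
    (h : Mem hf M a b) (hb : b ∉ Submodule.span F {a}) : Full hf M a := by
  classical
  have iso_case : ∀ z, f z z = 0 → f z a = 0 → z ∉ Submodule.span F {a} → Mem hf M a z := by
    intro z hz hza hzs
    have sep : ∀ y, y ∉ Submodule.span F {a} → ∃ e, f e e = 0 ∧ f e a = 0 ∧ f y e ≠ 0 := by
      intro y hy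
      obtain ⟨d, hd, hd'⟩ := exists_orth_sep hf hy
      have had : f a d = 0 := hd a (Submodule.mem_span_singleton_self a)
      obtain ⟨z0, hz0, hzz⟩ := exists_isotropic_add hn hf {d, a, y} Finset.card_le_three d
        (fun x hx => hx d (by simp)) (w := y) (w' := d) (by simp) (by simp) hd'
      exact ⟨d + z0, hzz, by rw [hf.add_left, orth_comm hf had, hz0 a (by simp), add_zero],
        by rw [add_right hf, orth_comm hf (hz0 y (by simp)), add_zero]; exact hd'⟩
    obtain ⟨e1, h11, h1a', h1b⟩ := sep b hb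
    obtain ⟨e2, h22, h2a', h2z⟩ := sep z hzs
    obtain ⟨e, hee, hea, hbe, hze⟩ : ∃ e, f e e = 0 ∧ f e a = 0 ∧ f b e ≠ 0 ∧ f z e ≠ 0 := by
      by_cases h1 : f z e1 = 0
      · by_cases h2 : f b e2 = 0
        · obtain ⟨c, hc0, hc⟩ := exists_traceZero hf
          obtain ⟨t, ht0, ht⟩ : ∃ t, t ≠ 0 ∧ t * f e2 e1 + σ t * f e1 e2 = 0 := by
            by_cases h21 : f e2 e1 = 0
            · exact ⟨1, one_ne_zero, by rw [h21, orth_comm hf h21, mul_zero, mul_zero, add_zero]⟩
            · refine ⟨c / f e2 e1, div_ne_zero hc0 h21, ?_⟩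
              rw [div_mul_cancel₀ _ h21, map_div₀, hf.herm e1 e2, div_mul_cancel₀ _ ?_, hc]
              simpa using h21
          refine ⟨e1 + t • e2, ?_, ?_, ?_, ?_⟩
          · rw [norm_add_smul hf, h11, h22]
            linear_combination ht
          · rw [hf.add_left, hf.smul_left, h1a', h2a', mul_zero, add_zero]
          · rw [add_right hf, smul_right hf, h2, mul_zero, add_zero]; exact h1b
          · rw [add_right hf, smul_right hf, h1, zero_add]
            exact mul_ne_zero (by simpa using ht0) h2z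
        · exact ⟨e2, h22, h2a', h2, h2z⟩
      · exact ⟨e1, h11, h1a', h1b, h1⟩
    have m1 := mem_of_chain hn hU h hee hea hbe 1
    rw [one_smul] at m1
    have := mem_of_chain hn hU m1 hz hza (fun e' => hze (orth_comm hf e')) 1
    rwa [one_smul] at this
  intro x hx
  obtain ⟨e, e', heS, he'S, hee, he'e', hee'⟩ := exists_hyperbolic_orth_two hn hf {a, x}
    Finset.card_le_two
  have hea := heS a (by simp)
  have he'a := he'S a (by simp)
  have hexx := heS x (by simp)
  have he'x := he'S x (by simp)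
  have he_span : ∀ y, (f y e' ≠ 0 ∨ f y e ≠ 0) → y ∉ Submodule.span F {a} := by
    intro y hy hm
    obtain ⟨k, rfl⟩ := Submodule.mem_span_singleton.1 hm
    rw [hf.smul_left, hf.smul_left, orth_comm hf hea, orth_comm hf he'a, mul_zero] at hy
    simp at hy
  obtain ⟨α, hα⟩ := exists_trace hf (r := -f x x) (by rw [map_neg, norm_fixed hf])
  have he'e : f e' e = 1 := by rw [hf.herm, hee', map_one]
  have hyy : f (x + α • e + e') (x + α • e + e') = 0 := by
    simp only [hf.add_left, add_right hf, hf.smul_left, smul_right hf, hee, he'e', hee', he'e, hexx,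
      he'x, orth_comm hf hexx, orth_comm hf he'x]
    linear_combination hα
  have m1 : Mem hf M a (x + α • e + e') := by
    refine iso_case _ hyy ?_ (he_span _ (Or.inr ?_))
    · simp [hf.add_left, hf.smul_left, orth_comm hf hx, hea, he'a]
    · simp [hf.add_left, hf.smul_left, orth_comm hf hexx, hee, he'e]
  have m2 : Mem hf M a (α • e) := by
    by_cases h0 : α = 0
    · rw [h0, zero_smul]; exact h.zero_right_of
    refine iso_case _ ?_ ?_ (he_span _ (Or.inl ?_))
    · simp [hf.smul_left, smul_right hf, hee]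
    · simp [hf.smul_left, hea]
    · simp [hf.smul_left, hee', h0]
  have m3 : Mem hf M a e' := iso_case _ he'e' he'a (he_span _ (Or.inr (by simp [he'e])))
  have := (m1.sub m2).sub m3
  simpa [add_sub_cancel_right, add_assoc, add_comm, add_left_comm, sub_sub] using this

theorem all_mem
    (hH : ∀ g, Iso f g → g ∈ Cfsg.Geo.specialLinear ι F → g ∈ M) {a : ι → F} (ha : a ≠ 0)
    (h : Full hf M a) {a' b : ι → F} (hab : f a' b = 0) : Mem hf M a' b := by
  classical
  -- transitivity on vectors of one norm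
  have move : ∀ y, y ≠ 0 → ∀ l : F, l ≠ 0 → f (l • a) (l • a) = f y y → Full hf M y := by
    intro y hy l hl0 hN
    obtain ⟨u, hu, huu⟩ := exists_unit_orth hf {y} (by simp; omega)
    have hla : l • a ≠ 0 := smul_ne_zero hl0 ha
    let X := Submodule.span F {l • a}
    let e := LinearEquiv.toSpanNonzeroSingleton F (ι → F) (l • a) hla
    let φ : X →ₗ[F] (ι → F) := (LinearMap.toSpanSingleton F (ι → F) y) ∘ₗ e.symm.toLinearMap
    have hx : ∀ x : X, (x : ι → F) = e.symm x • (l • a) ∧ φ x = e.symm x • y := fun x => by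
      refine ⟨?_, rfl⟩
      conv_lhs => rw [← e.apply_symm_apply x]
      rfl
    have hinj : Function.Injective φ := fun p q hpq => by
      rw [(hx p).2, (hx q).2] at hpq
      exact e.symm.injective (smul_left_injective F hy hpq)
    obtain ⟨g, hg, hgs, hgx⟩ := exists_iso_special hf X φ hinj (fun p q => by
      rw [(hx p).2, (hx q).2, (hx p).1, (hx q).1, hf.smul_left, smul_right hf, ← hN,
        hf.smul_left _ (l • a), smul_right hf _ _ (l • a)]) huu (fun p => by
      rw [(hx p).2, hf.smul_left, orth_comm hf (hu y (by simp)), mul_zero])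
    have h1 := (h.smul l).image (hH g hg hgs) hg
    have h2 : (g : Matrix ι ι F) *ᵥ (l • a) = y := by
      rw [hgx ⟨l • a, Submodule.mem_span_singleton_self _⟩, (hx _).2]
      have : e.symm ⟨l • a, Submodule.mem_span_singleton_self _⟩ = 1 := by
        rw [LinearEquiv.symm_apply_eq]
        apply Subtype.ext
        simp [e]
      rw [this, one_smul]
    exact h2 ▸ h1
  by_cases haa : f a a = 0
  · -- isotropic centres
    have hiso : ∀ y, f y y = 0 → f y b = 0 → Mem hf M y b := fun y hy hyb => by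
      by_cases hy0 : y = 0
      · rw [hy0]; exact mem_zero_left b
      exact move y hy0 1 one_ne_zero (by rw [one_smul, haa, hy]) b hyb
    obtain ⟨e, e', heS, he'S, hee, he'e', hee'⟩ := exists_hyperbolic_orth_two hn hf {a', b}
      Finset.card_le_two
    obtain ⟨α, hα⟩ := exists_trace hf (r := -f a' a') (by rw [map_neg, norm_fixed hf])
    have hex := heS a' (by simp)
    have he'x := he'S a' (by simp)
    have he'e : f e' e = 1 := by rw [hf.herm, hee', map_one]
    have hyy : f (a' + α • e + e') (a' + α • e + e') = 0 := by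
      simp only [hf.add_left, add_right hf, hf.smul_left, smul_right hf, hee, he'e', hee', he'e, hex,
        he'x, orth_comm hf hex, orth_comm hf he'x]
      linear_combination hα
    have m1 := hiso _ hyy (by simp [hf.add_left, hf.smul_left, hab, heS b (by simp), he'S b (by simp)])
    have m2 := hiso ((-α) • e) (by rw [hf.smul_left, smul_right hf, hee, mul_zero, mul_zero])
      (by rw [hf.smul_left, heS b (by simp), mul_zero])
    have m3 := hiso ((-1 : F) • e') (by rw [hf.smul_left, smul_right hf, he'e', mul_zero, mul_zero])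
      (by rw [hf.smul_left, he'S b (by simp), mul_zero])
    have h4 : a' + α • e + e' + (-α) • e + (-1 : F) • e' = a' := by module
    exact h4 ▸ (m1.add_left m2).add_left m3
  · have haniso : ∀ y, f y y ≠ 0 → f y b = 0 → Mem hf M y b := fun y hy hyb => by
      obtain ⟨l, hl⟩ := exists_norm hf (r := f y y / f a a)
        (by rw [map_div₀, norm_fixed hf, norm_fixed hf])
      refine move y (fun e => hy (by rw [e, zero_left hf])) l (fun e => ?_) ?_ b hyb
      · rw [e, zero_mul, eq_comm, div_eq_zero_iff] at hl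
        exact hl.elim hy haa
      · rw [hf.smul_left, smul_right hf, ← mul_assoc, hl, div_mul_cancel₀ _ haa]
    by_cases hy : f a' a' = 0
    · obtain ⟨u, hu, huu⟩ := exists_unit_orth hf {a', b}
        (by have := Finset.card_le_two (a := a') (b := b); omega)
      have m1 := haniso (a' - u) (by
        rw [sub_left hf, sub_right hf, sub_right hf, hy, huu, hu a' (by simp),
          orth_comm hf (hu a' (by simp))]
        simp) (by rw [sub_left hf, hab, hu b (by simp), sub_zero])
      have m2 := haniso u (by rw [huu]; exact one_ne_zero) (hu b (by simp))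
      simpa using m1.add_left m2
    · exact haniso a' hy hab

/-- An element outside the similarity group gives a new transvection. -/
theorem exists_new (hU : ∀ v (hv : f v v = 0) c, c + σ c = 0 → uT hf hv c ∈ M) {g : GL ι F}
    (hgM : g ∈ M) (hg : g ∉ Cfsg.Geo.similarityGroup f) :
    ∃ a b, a ≠ 0 ∧ Mem hf M a b ∧ b ∉ Submodule.span F {a} := by
  classical
  by_contra hno
  push Not at hno
  obtain ⟨c, hc0, hc⟩ := exists_traceZero hf
  have hv : ∀ v, f v v = 0 → ∃ μ : F, ∀ y,
      f y v = μ * f ((g : Matrix ι ι F) *ᵥ y) ((g : Matrix ι ι F) *ᵥ v) := by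
    intro v hv
    by_cases hv0 : v = 0
    · exact ⟨0, fun y => by rw [hv0, zero_right hf, zero_mul]⟩
    obtain ⟨b, hb⟩ := exists_upair_eq hf
      ((c • upair hf v).comp (Matrix.toLin' ((g⁻¹ : GL ι F) : Matrix ι ι F)))
    have hbx : ∀ x, f x b = c * f (((g⁻¹ : GL ι F) : Matrix ι ι F) *ᵥ x) v := fun x => by
      have := LinearMap.congr_fun hb x
      simpa using this
    have h1 : upair hf b ((g : Matrix ι ι F) *ᵥ v) = 0 := by
      rw [upair_apply, hbx, inv_mulVec_mulVec, hv, mul_zero]
    have hmem : Mem hf M ((g : Matrix ι ι F) *ᵥ v) b := by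
      refine ⟨h1, ?_⟩
      rw [← conj_transv g (φ := c • upair hf v) (v := v) (by simp [hv]) h1 rfl (fun x => by
        rw [upair_apply, hbx, inv_mulVec_mulVec]; rfl)]
      exact M.mul_mem (M.mul_mem hgM (hU v hv c hc)) (M.inv_mem hgM)
    obtain ⟨k, hk⟩ := Submodule.mem_span_singleton.1 (hno _ _ (fun e => hv0 (by
      rw [← inv_mulVec_mulVec g v, e, mulVec_zero])) hmem)
    refine ⟨σ k / c, fun y => ?_⟩
    have h2 := hbx ((g : Matrix ι ι F) *ᵥ y)
    rw [inv_mulVec_mulVec, ← hk, smul_right hf] at h2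
    field_simp
    linear_combination -h2
  choose μ hμ using hv
  have swap : ∀ v w (hv : f v v = 0) (hw : f w w = 0), f v w ≠ 0 → μ w hw = σ (μ v hv) := by
    intro v w hv hw hvw
    have h1 := congrArg σ (hμ v hv w)
    rw [map_mul, ← hf.herm, ← hf.herm, hμ w hw v] at h1
    refine mul_right_cancel₀ ?_ h1
    intro e
    rw [hμ w hw v, e, mul_zero] at hvw
    exact hvw rfl
  have same : ∀ v w (hv : f v v = 0) (hw : f w w = 0), v ≠ 0 → w ≠ 0 → μ w hw = μ v hv := by
    intro v w hv hw hv0 hw0
    obtain ⟨e, he, hev, hew⟩ := exists_isotropic_nonorth hn hf hv0 hw0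
    rw [swap e w he hw hew, swap e v he hv hev]
  obtain ⟨e, e', -, -, hee, he'e', hee'⟩ := exists_hyperbolic_orth hf ∅ (by simp; omega)
  have hne : f e e' ≠ 0 := by rw [hee']; exact one_ne_zero
  have he0 : e ≠ 0 := fun h => hne (by rw [h, zero_left hf])
  have hμ0 : μ e hee ≠ 0 := fun h => by
    have := hμ e hee e'
    rw [h, zero_mul, hf.herm, hee', map_one] at this
    exact one_ne_zero this
  have hall : ∀ v, f v v = 0 → ∀ y,
      f y v = μ e hee * f ((g : Matrix ι ι F) *ᵥ y) ((g : Matrix ι ι F) *ᵥ v) := by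
    intro v hv y
    by_cases hv0 : v = 0
    · simp [hv0, zero_right hf]
    · rw [← same e v hee hv he0 hv0]; exact hμ v hv y
  refine hg ⟨Units.mk0 _ (inv_ne_zero hμ0), fun y x => ?_⟩
  rw [Units.val_mk0]
  have key : f y x = μ e hee * f ((g : Matrix ι ι F) *ᵥ y) ((g : Matrix ι ι F) *ᵥ x) := by
    by_cases hx0 : x = 0
    · simp [hx0, zero_right hf]
    obtain ⟨z, hz, hzx, -⟩ := exists_isotropic_nonorth hn hf hx0 hx0
    obtain ⟨t, ht⟩ := exists_isotropic_shift hf hz hzx
    have h1 := hall _ ht y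
    have h2 := hall z hz y
    rw [mulVec_add, mulVec_smul, add_right hf, add_right hf, smul_right hf, smul_right hf, h2] at h1
    linear_combination h1
  rw [key, inv_mul_cancel_left₀ hμ0]

end Generate

end

theorem isMaximal {F : Type*} [Field F] [Fintype F] (n : ℕ) (hn : 6 ≤ n) (σ : F ≃+* F) (f : (Fin n → F) → (Fin n → F) → F) (hf : Cfsg.Geo.IsUnitaryForm σ f) : Cfsg.Geo.IsMaximalIn (Cfsg.Geo.specialLinear (Fin n) F) (Cfsg.Geo.similarityGroup f ⊓ Cfsg.Geo.specialLinear (Fin n) F) := by
  classical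
  have hcard : 6 ≤ Fintype.card (Fin n) := by rw [Fintype.card_fin]; exact hn
  have hsim : ∀ g, CfsgLib.UnitCentres.Iso f g → g ∈ Geo.similarityGroup f :=
    fun g hg => ⟨1, fun x y => by rw [hg x y, Units.val_one, one_mul]⟩
  refine ⟨lt_of_le_not_ge inf_le_right fun h => ?_, fun M hHM hMK => ?_⟩
  · obtain ⟨e, e', -, -, hee, -, hee'⟩ :=
      CfsgLib.UnitCentres.exists_hyperbolic_orth hf ∅ (by simp; omega)
    obtain ⟨u, hu, huu⟩ := CfsgLib.UnitCentres.exists_unit_orth hf {e, e'}
      (by have := Finset.card_le_two (a := e) (b := e'); omega)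
    have h0 : CfsgLib.UnitCentres.upair hf u e = 0 :=
      CfsgLib.UnitCentres.orth_comm hf (hu e (by simp))
    obtain ⟨c, hc⟩ := (h (CfsgLib.TransvGL.transv_mem_specialLinear h0)).1
    have h1 := hc u e'
    rw [CfsgLib.TransvGL.transv_mulVec, CfsgLib.TransvGL.transv_mulVec,
      CfsgLib.UnitCentres.upair_apply, CfsgLib.UnitCentres.upair_apply, huu,
      CfsgLib.UnitCentres.orth_comm hf (hu e' (by simp)), hf.add_left, hf.smul_left, zero_smul,
      add_zero, hu e' (by simp), hee', mul_zero] at h1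
    simp at h1
  · by_cases hle : M ≤ Geo.similarityGroup f ⊓ Geo.specialLinear (Fin n) F
    · exact Or.inl (le_antisymm hle hHM)
    obtain ⟨g, hgM, hgH⟩ := SetLike.not_le_iff_exists.1 hle
    refine Or.inr (le_antisymm hMK (CfsgLib.TransvGL.specialLinear_le_of_transv_mem M ?_))
    have hH : ∀ k, CfsgLib.UnitCentres.Iso f k → k ∈ Geo.specialLinear (Fin n) F → k ∈ M :=
      fun k hk hks => hHM ⟨hsim k hk, hks⟩
    have hU : ∀ v (hv : f v v = 0) c, c + σ c = 0 → CfsgLib.UnitCentres.uT hf hv c ∈ M :=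
      fun v hv c hc => hH _ (CfsgLib.UnitCentres.uT_iso hf hv hc)
        (CfsgLib.UnitCentres.uT_mem_specialLinear hf hv c)
    obtain ⟨a, b, ha0, hab, hb⟩ := exists_new (hf := hf) hcard hU hgM fun hs => hgH ⟨hs, hMK hgM⟩
    have hfull := full_of_mem hcard hU hab hb
    intro φ v hφ
    obtain ⟨b', rfl⟩ := CfsgLib.UnitCentres.exists_upair_eq hf φ
    exact (all_mem hcard hH ha0 hfull (a' := v) (b := b') hφ).2

end CfsgLib.SLGeo91.UnitSim
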