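import Cfsg.Agent.SLGeo91.SubspaceMax
import Cfsg.Agent.SLGeo91.DecompMax
import Cfsg.Agent.SLGeo91.SympSim
import Cfsg.Agent.SLGeo91.UnitSim
import Cfsg.Agent.SLGeo91.OrthSim
import Cfsg.Agent.Subfield54.SL
import Cfsg.Agent.FieldExtMax.MatrixForm
import Cfsg.Agent.TensorMax.MatrixForm

/-!
The geometric types of maximal subgroups of the special linear group in dimension at least ten.
-/

set_option autoImplicit false

namespace CfsgLib.SLGeo91

variable {F : Type*} [Field F] [Fintype F]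

lemma two_ne_zero_of_odd (hodd : Odd (Fintype.card F)) : (2 : F) ≠ 0 := by
  intro h
  have h1 : ringChar F = 2 := CharP.ringChar_of_prime_eq_zero Nat.prime_two (by exact_mod_cast h)
  have h2 := FiniteField.even_card_of_char_two h1
  obtain ⟨j, hj⟩ := hodd
  omega

theorem field_max {n r : ℕ} (hr : r.Prime) (hlt : r < n) (hdvd : r ∣ n)
    {K : Subalgebra F (Matrix (Fin n) (Fin n) F)} (hK : Cfsg.Geo.IsFieldSubalgebra r K) :
    Cfsg.Geo.IsMaximalIn (Cfsg.Geo.specialLinear (Fin n) F)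
      (Cfsg.Geo.subalgebraNormalizer K ⊓ Cfsg.Geo.specialLinear (Fin n) F) :=
  (FieldExtMax.normalizer_maximal hK hr (by rwa [Fintype.card_fin]) (by rwa [Fintype.card_fin])).2

theorem tensor_max {n n₁ n₂ : ℕ} (h1 : 2 ≤ n₁) (h12 : n₁ < n₂)
    (hq : 3 ≤ Fintype.card F ∨ 3 ≤ n₁) (e : Fin n ≃ Fin n₁ × Fin n₂)
    (P : Matrix.GeneralLinearGroup (Fin n) F) :
    Cfsg.Geo.IsMaximalIn (Cfsg.Geo.specialLinear (Fin n) F)
      (Cfsg.Geo.tensorProductSubgroup n₁ n₂ e P ⊓ Cfsg.Geo.specialLinear (Fin n) F) :=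
  TensorMax.tensor_maximal h1 h12 (by rwa [Nat.card_eq_fintype_card]) e P

end CfsgLib.SLGeo91
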